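import Cfsg.Agent.H07.MinNA

/-! Abelian subgroups of bounded index (Isaacs 12.23). -/

namespace H07
open Cfsg H05 H06 H01
open scoped ComplexConjugate commutatorElement Pointwise

variable {G : Type*} [Group G] {χ : G → ℂ}

theorem exists_small_class [Finite G] [Nontrivial G] {b : ℕ} (h : ∀ χ : IrrCharacter G, charDegree χ.1 ≤ b) :
    ∃ x : G, x ≠ 1 ∧ (Subgroup.centralizer {x}).index ≤ b ^ 2 := by
  classical
  letI := Fintype.ofFinite G
  by_contra h1
  push Not at h1
  have h2 : ∀ x : G, (ConjClasses.mk x).carrier.toFinset.card = (Subgroup.centralizer {x}).index := fun x => by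
    rw [← card_filter_isConj]
    congr 1; ext y
    rw [Set.mem_toFinset, ConjClasses.mem_carrier_iff_mk_eq, ConjClasses.mk_eq_mk_iff_isConj, Finset.mem_filter_univ,
      isConj_comm]
  have e1 := sum_conjClasses_card_eq_card G
  have e2 := sum_charDegree_sq (G := G)
  have e3 := card_irr_eq_card_conjClasses (G := G)
  rw [← Finset.add_sum_erase _ _ (Finset.mem_univ (ConjClasses.mk 1)), h2] at e1
  rw [← Finset.add_sum_erase _ _ (Finset.mem_univ ⟨_, isIrrCharacter_one⟩)] at e2
  have a1 := Finset.card_nsmul_le_sum (Finset.univ.erase (ConjClasses.mk (1 : G)))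
    (fun C => C.carrier.toFinset.card) (b ^ 2 + 1) fun C hC => by
      obtain ⟨x, rfl⟩ := ConjClasses.mk_surjective C
      exact (h2 x).symm ▸ h1 x fun e => Finset.ne_of_mem_erase hC (e ▸ rfl)
  have a2 := Finset.sum_le_card_nsmul (Finset.univ.erase (⟨_, isIrrCharacter_one⟩ : IrrCharacter G))
    (fun χ => charDegree χ.1 ^ 2) (b ^ 2) fun χ _ => Nat.pow_le_pow_left (h χ) 2
  have a3 := Fintype.one_lt_card (α := G)
  have a4 : (Subgroup.centralizer {(1 : G)}).index = 1 := Subgroup.index_eq_one.2 (by ext; simp)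
  have a5 : charDegree (1 : G → ℂ) = 1 := by simp [charDegree]
  simp only [Finset.card_erase_of_mem (Finset.mem_univ _), Finset.card_univ, smul_eq_mul, Nat.card_eq_fintype_card,
    a5, one_pow, a4] at a1 a2 e1 e2 e3
  replace a1 := (Nat.add_le_add_left a1 1).trans e1.le
  replace a2 := e2.ge.trans (Nat.add_le_add_left a2 1)
  rw [e3] at a2
  rcases Nat.eq_zero_or_pos (Fintype.card (ConjClasses G) - 1) with e | e
  · rw [e] at a2; omega
  · rw [mul_add] at a1; omega

theorem deg_le_of_res [Finite G] {b : ℕ} (h : ∀ χ : IrrCharacter G, charDegree χ.1 ≤ b) (H : Subgroup G)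
    (ψ : IrrCharacter H) : charDegree ψ.1 ≤ b := by
  classical
  letI := Fintype.ofFinite G
  obtain ⟨χ, h1, h2⟩ := exists_irr_over H ψ.2
  exact (degree_le_of_constituent (h1.isCharacter.restrict H) ψ.2 h2).trans (h ⟨χ, h1⟩)

theorem two_mul_deg_le [Finite G] {b : ℕ} (h : ∀ χ : IrrCharacter G, charDegree χ.1 ≤ b) (K : Subgroup G) [K.Normal]
    (hK : ∀ χ, IsIrrCharacter G χ → IsIrrCharacter K (fun k => χ k) →
      ∃ β, IsIrrCharacter G β ∧ charDegree β ≠ 1 ∧ IsIrrCharacter G (β * χ))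
    (θ : IrrCharacter K) : 2 * charDegree θ.1 ≤ b := by
  obtain ⟨χ, f, -, h1, h2⟩ := exists_over_mul K θ
  have h3 := χ.2.charDegree_pos
  by_cases hf : f = 1
  · obtain ⟨β, h4, h5, h6⟩ := hK _ χ.2 (funext (h2 hf) ▸ θ.2)
    have := h ⟨_, h6⟩
    rw [h4.isCharacter.charDegree_mul χ.2.isCharacter, h1, hf, one_mul] at this
    exact (Nat.mul_le_mul_right _ (by have := h4.charDegree_pos; omega)).trans this
  · refine (Nat.mul_le_mul_right _ ?_).trans (h1 ▸ h χ)
    have : f ≠ 0 := by rintro rfl; omega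
    omega

theorem vanish_off_core [Finite G] {b : ℕ} (h : ∀ χ : IrrCharacter G, charDegree χ.1 ≤ b) (H : Subgroup G)
    {ψ : H → ℂ} (hψ : IsIrrCharacter H ψ) (hb : b ≤ charDegree ψ) (x : H) (hx : (x : G) ∉ H.normalCore) : ψ x = 0 := by
  classical
  letI := Fintype.ofFinite G
  have h1 : ∀ χ : IrrCharacter G, classInner (indFun H ψ) χ.1 ≠ 0 → (fun h : H => χ.1 h) = ψ := fun χ hχ => by
    rw [frobenius_reciprocity H _ _ χ.2.isClassFunction, classInner_ne_zero_comm] at hχ
    refine eq_of_constituent_of_degree (χ.2.isCharacter.restrict H) hψ hχ ?_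
    rw [← hψ.charDegree_eq, ← (χ.2.isCharacter.restrict H).charDegree_eq]
    exact congrArg _ (le_antisymm ((h χ).trans hb) (degree_le_of_constituent (χ.2.isCharacter.restrict H) hψ hχ))
  have h2 : ∀ y : H, indFun H ψ y = (∑ χ : IrrCharacter G, classInner (indFun H ψ) χ.1) * ψ y := fun y => by
    rw [Finset.sum_mul]
    refine ((indFun_isClassFunction H ψ).apply_eq_sum y).trans (Finset.sum_congr rfl fun χ _ => ?_)
    by_cases e : classInner (indFun H ψ) χ.1 = 0
    · simp [e]
    · rw [← congrFun (h1 χ e) y]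
  obtain ⟨χ, hχ, h3⟩ := exists_irr_over H hψ
  have h4 := h1 ⟨χ, hχ⟩ (by rwa [frobenius_reciprocity H _ _ hχ.isClassFunction, classInner_ne_zero_comm])
  have h5 := congrFun (indFun_res_mul H (fun _ => 1) χ hχ.isClassFunction) x
  simp only [mul_one] at h5 h4
  rw [h4, h2, ← mul_right_cancel₀ hψ.apply_one_ne_zero ((indFun_one H ψ).symm.trans (h2 1)), Pi.mul_apply,
    congrFun h4 x, mul_comm] at h5
  by_contra h0
  have h6 := (mem_charKer_indFun H isCharacter_one' (fun e => one_ne_zero (congrFun e 1)) x).1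
    ((isCharacter_indFun_one H).mem_charKer.2 (by rw [← mul_left_cancel₀ h0 h5, indFun_one, mul_one]))
  exact hx fun g => by simpa using (h6 g⁻¹).1

theorem abelian_step [Finite G] {b : ℕ} (h : ∀ χ : IrrCharacter G, charDegree χ.1 ≤ b) (hG : ¬ IsMulCommutative G) :
    (∃ H : Subgroup G, H.index ≤ b ^ 2 ∧ ∀ ψ : IrrCharacter H, charDegree ψ.1 < b) ∨
      ∃ K : Subgroup G, (3 ≤ b ∧ K.index ≤ b ^ 3 ∨ 5 ≤ b ∧ K.index ≤ b ^ 4) ∧
        ∀ ψ : IrrCharacter K, 2 * charDegree ψ.1 ≤ b := by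
  classical
  letI := Fintype.ofFinite G
  have hb := (isIrrCharacter_one (G := G)).charDegree_pos.trans_le (h ⟨_, isIrrCharacter_one⟩)
  obtain ⟨K, _, h1, h2, h3⟩ := na_cases hG
  have hK := two_mul_deg_le h K fun χ hχ hr => by
    obtain ⟨β, hβ⟩ := not_forall.1 (mt (comm_le_of_deg_one K) h1)
    exact ⟨_, (inflIrr K β).2, hβ, gallagher_one_irr K hχ.isCharacter hr (inflIrr K β).2
      ((mem_range_inflIrr K _).1 ⟨β, rfl⟩)⟩
  refine or_iff_not_imp_left.2 fun h4 => ⟨K, ?_, hK⟩
  push Not at h4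
  rcases h3 with ⟨β, h3, h5⟩ | ⟨N, _, h3⟩ | h3
  · obtain ⟨ψ, hψ⟩ := h4 (charCenter β.1) (deg_sq_eq_index β.2 h5 ▸ Nat.pow_le_pow_left (h β) 2)
    have := two_mul_deg_le h (charCenter β.1) (fun χ hχ hr => ⟨_, β.2, h3,
      isIrr_mul_of_charCenter β.2 hχ.isCharacter hr⟩) ψ
    omega
  · obtain ⟨η, h5⟩ := h3.exists_deg
    have h6 := h5 ▸ h η
    have h7 := h3.one_lt
    obtain ⟨ψ, hψ⟩ := h4 N (h6.trans (Nat.le_self_pow two_ne_zero b))
    have h8 := (h3.deg_or_dvd ψ.2).resolve_left fun ⟨χ, e⟩ => by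
      have := e ▸ h χ
      nlinarith
    rw [le_antisymm (deg_le_of_res h N ψ) hψ] at h8
    refine Or.inl ⟨by_contra fun h9 => ?_, ?_⟩
    · obtain ⟨r, hr, h10, h11⟩ := h3.exists_prime
      exact h11 ((hr.dvd_of_dvd_pow (h10.trans h8)).trans (dvd_of_eq (by omega)))
    · rw [← Subgroup.relIndex_mul_index h3.lt.le, pow_succ]
      exact Nat.mul_le_mul (Nat.le_of_dvd (by positivity) h8) h6
  · let π := QuotientGroup.mk' K
    refine Or.inr ⟨by_contra fun h5 => ?_, ?_⟩
    · haveI := solvable_of_deg_le_four (G := G) fun χ => by have := h χ; omega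
      have h5 := h2 _ inferInstance (right_lt_sup.2 h3)
      have h6 : ∀ n, commutator G ≤ derivedSeries G n ⊔ K := fun n => by
        induction n with
        | zero => exact le_top.trans le_sup_left
        | succ n ih =>
          refine h5.trans (sup_le ((Subgroup.commutator_mono ih ih).trans ?_) le_sup_right)
          refine (Subgroup.map_le_map_iff (f := π)).1 (le_of_eq ?_) |>.trans (by rw [QuotientGroup.ker_mk'])
          rw [Subgroup.map_commutator, Subgroup.map_sup, (Subgroup.map_eq_bot_iff K).2 (QuotientGroup.ker_mk' K).ge,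
            sup_bot_eq, derivedSeries_succ, Subgroup.map_commutator]
      obtain ⟨n, hn⟩ := ‹Group.IsSolvable G›.solvable
      exact h1 (by simpa [hn] using h6 n)
    haveI : Nontrivial (G ⧸ K) := QuotientGroup.nontrivial_iff.2 fun e => h1 (e ▸ le_top)
    obtain ⟨x, hx, h5⟩ := exists_small_class (G := G ⧸ K) fun χ => h (inflIrr K χ)
    rw [← Subgroup.index_comap_of_surjective _ (QuotientGroup.mk'_surjective K)] at h5
    set H := (Subgroup.centralizer {x}).comap π with hH
    have hKH : K ≤ H := (QuotientGroup.ker_mk' K).ge.trans (Subgroup.ker_le_comap _ _)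
    obtain ⟨ψ, hψ⟩ := h4 H h5
    have h6 : H.normalCore = K := by
      by_contra h6
      have h7 := (h2 _ inferInstance (lt_of_le_of_ne (Subgroup.normal_le_normalCore.2 hKH) (Ne.symm h6))).trans
        H.normalCore_le
      obtain ⟨x, rfl⟩ := QuotientGroup.mk_surjective x
      let M := (Subgroup.centralizer (((commutator G).map π : Subgroup _) : Set (G ⧸ K))).comap π
      haveI : ((commutator G).map π).Normal := Subgroup.Normal.map inferInstance _ (QuotientGroup.mk'_surjective K)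
      have h8 := h2 M inferInstance (lt_of_le_of_ne ((QuotientGroup.ker_mk' K).ge.trans (Subgroup.ker_le_comap _ _))
        fun e => hx ((QuotientGroup.eq_one_iff x).2 (e ▸ ?_)))
      · exact h3 (Subgroup.commutator_le.2 fun a ha b hb => (QuotientGroup.eq_one_iff _).1
          (commutatorElement_eq_one_iff_mul_comm.2 (h8 hb _ ⟨a, ha, rfl⟩)))
      · rintro _ ⟨a, ha, rfl⟩
        exact Subgroup.mem_centralizer_singleton_iff.1 (h7 ha)
    have h7 := index_dvd_deg_sq ψ.2 (K.subgroupOf H) fun g hg => vanish_off_core h H ψ.2 hψ g (h6 ▸ hg)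
    rw [le_antisymm (deg_le_of_res h H ψ) hψ] at h7
    rw [← Subgroup.relIndex_mul_index hKH, pow_add b 2 2]
    exact Nat.mul_le_mul (Nat.le_of_dvd (by positivity) h7) h5

theorem sq_mul_factorial_le {b : ℕ} (hb : 5 ≤ b) : b ^ 2 * (b / 2).factorial ≤ b.factorial := by
  obtain ⟨c, rfl⟩ := Nat.exists_eq_add_of_le' (show 3 ≤ b by omega)
  have := Nat.factorial_le (show (c + 3) / 2 ≤ c by omega)
  simp only [Nat.factorial_succ]
  calc _ ≤ (c + 3) ^ 2 * c.factorial := Nat.mul_le_mul_left _ this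
    _ ≤ (c + 3) * ((c + 2) * (c + 1)) * c.factorial := by
      rw [sq]; exact Nat.mul_le_mul_right _ (Nat.mul_le_mul_left _ (by nlinarith))
    _ = _ := by ring

universe u in
theorem exists_abelian_index (b : ℕ) : ∀ (G : Type u) [Group G] [Finite G],
    (∀ χ : IrrCharacter G, charDegree χ.1 ≤ b) →
    ∃ A : Subgroup G, (∀ x ∈ A, ∀ y ∈ A, x * y = y * x) ∧ A.index ≤ b.factorial ^ 2 := by
  induction b using Nat.strong_induction_on with | _ b ih => ?_
  intro G _ _ h
  by_cases hG : IsMulCommutative G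
  · exact ⟨⊤, fun x _ y _ => hG.1.1 x y, by simpa using Nat.one_le_pow _ _ b.factorial_pos⟩
  have hb := (isIrrCharacter_one (G := G)).charDegree_pos.trans_le (h ⟨_, isIrrCharacter_one⟩)
  have key : ∀ (H : Subgroup G) c, c < b → (∀ ψ : IrrCharacter H, charDegree ψ.1 ≤ c) →
      H.index * c.factorial ^ 2 ≤ b.factorial ^ 2 →
      ∃ A : Subgroup G, (∀ x ∈ A, ∀ y ∈ A, x * y = y * x) ∧ A.index ≤ b.factorial ^ 2 := fun H c hc h1 h2 => by
    obtain ⟨A, h3, h4⟩ := ih c hc H h1
    refine ⟨A.map H.subtype, ?_, ?_⟩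
    · rintro _ ⟨x, hx, rfl⟩ _ ⟨y, hy, rfl⟩
      exact congrArg Subtype.val (h3 x hx y hy)
    · rw [Subgroup.index_map_subtype, mul_comm]
      exact (Nat.mul_le_mul_left _ h4).trans h2
  rcases abelian_step h hG with ⟨H, h1, h2⟩ | ⟨K, h1, h2⟩
  · refine key H (b - 1) (by omega) (fun ψ => by have := h2 ψ; omega) ?_
    rw [← Nat.mul_factorial_pred hb.ne', mul_pow]
    exact Nat.mul_le_mul_right _ h1
  refine key K (b / 2) (by omega) (fun ψ => by have := h2 ψ; omega) ?_
  by_cases h5 : 5 ≤ b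
  · have : K.index ≤ b ^ 4 := h1.elim (fun h => h.2.trans (Nat.pow_le_pow_right hb (by omega))) fun h => h.2
    refine (Nat.mul_le_mul_right _ this).trans (le_of_eq_of_le ?_ (Nat.pow_le_pow_left (sq_mul_factorial_le h5) 2))
    ring
  · obtain ⟨h3, h4⟩ := h1.resolve_right fun h => h5 h.1
    refine (Nat.mul_le_mul_right _ h4).trans ?_
    interval_cases b <;> decide

end H07
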