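import Mathlib
import Cfsg.Agent.H02.MinNormal
import Cfsg.Agent.H07.Deg3

/-!
H07.Berger: Berger's theorem (quasi-primitive characters of solvable groups are primitive).
* `H07.Homog χ`: `χ = e • ϑ` with `ϑ` irreducible; `homog_of_forall`, `Homog.eq`.
* `H07.isIrr_of_mul`, `mem_charCenter_of_mul`, `isIrr_comp_of_sup_charCenter`, `charCenter_comp`,
  `charCenter_indFun_le`, `prim_of_mul` (factors of a primitive character are primitive).
* `H07.exists_factor`: over an invariant `η ∈ Irr N`, `χ ∘ π = β α` in a central extension, `α_N` irreducible, `N ≤ Z(β)`.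
* `H07.berger`, `H07.berger_rel`.
-/

set_option autoImplicit false

namespace H07

open Cfsg H05 H06
open scoped ComplexConjugate commutatorElement

universe u

variable {G : Type*} [Group G] {χ α β : G → ℂ}

/-- a multiple of an irreducible character -/
def Homog (χ : G → ℂ) : Prop := ∃ (ϑ : G → ℂ) (e : ℕ), IsIrrCharacter G ϑ ∧ χ = (e : ℂ) • ϑ

theorem Homog.eq [Fintype G] (h : Homog χ) (hα : IsIrrCharacter G α) (hβ : IsIrrCharacter G β)
    (h1 : classInner χ α ≠ 0) (h2 : classInner χ β ≠ 0) : α = β := by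
  obtain ⟨ϑ, e, hϑ, rfl⟩ := h
  rw [H05.classInner_smul_left] at h1 h2
  rw [← hϑ.eq_of_classInner_ne_zero hα (right_ne_zero_of_mul h1),
    hϑ.eq_of_classInner_ne_zero hβ (right_ne_zero_of_mul h2)]

theorem homog_of_forall [Fintype G] (hχ : IsCharacter G χ) (h : ∀ α β, IsIrrCharacter G α →
    IsIrrCharacter G β → classInner χ α ≠ 0 → classInner χ β ≠ 0 → α = β) : Homog χ := by
  by_cases h0 : χ = 0
  · exact ⟨1, 0, isIrrCharacter_one, by simp [h0]⟩
  obtain ⟨α, hα, h1⟩ := hχ.exists_constituent h0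
  obtain ⟨e, he⟩ := hχ.exists_classInner_eq_nat hα.isCharacter
  refine ⟨α, e, hα, hχ.isClassFunction.ext_inner (hα.isClassFunction.smul _) fun β hβ => ?_⟩
  rw [H05.classInner_smul_left]
  by_cases h2 : α = β
  · rw [← h2, he, hα.classInner_self, mul_one]
  · rw [hα.classInner_of_ne hβ h2, mul_zero]
    by_contra h3
    exact h2 (h α β hα hβ h1 h3)

theorem Homog.comp {H : Type*} [Group H] (h : Homog χ) (f : H →* G) (hf : Function.Surjective f) :
    Homog fun x => χ (f x) := by
  obtain ⟨ϑ, e, hϑ, rfl⟩ := h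
  exact ⟨_, e, hϑ.comp_of_surjective f hf, rfl⟩

theorem inner_add_ne_zero [Fintype G] (hα : IsCharacter G α) (hβ : IsCharacter G β) (hχ : IsCharacter G χ)
    (h : classInner α χ ≠ 0) : classInner (α + β) χ ≠ 0 := by
  obtain ⟨m, hm⟩ := hα.exists_classInner_eq_nat hχ
  obtain ⟨n, hn⟩ := hβ.exists_classInner_eq_nat hχ
  rw [H05.classInner_add_left, hm, hn]
  exact fun h1 => h (by rw [hm, (natCast_add_eq_zero h1).1, Nat.cast_zero])

theorem inner_mul_ne_zero [Fintype G] (hα : IsCharacter G α) (hβ : IsCharacter G β) {γ : G → ℂ}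
    (hγ : IsIrrCharacter G γ) (h : classInner β γ ≠ 0) (hχ : IsCharacter G χ)
    (h1 : classInner (γ * α) χ ≠ 0) : classInner (β * α) χ ≠ 0 := by
  have := inner_add_ne_zero (hγ.isCharacter.mul hα) ((hβ.sub_constituent hγ h).mul hα) hχ h1
  rwa [← add_mul, add_sub_cancel] at this

variable [Finite G]

theorem isIrr_of_mul (hα : IsCharacter G α) (hβ : IsCharacter G β) (h : IsIrrCharacter G (β * α)) :
    IsIrrCharacter G β := by
  have := Fintype.ofFinite G
  have h0 : β 1 * α 1 ≠ 0 := h.apply_one_ne_zero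
  obtain ⟨γ, hγ, h1⟩ := hβ.exists_constituent fun h1 => left_ne_zero_of_mul h0 (by simp [h1])
  obtain ⟨δ, hδ, h2⟩ := (hγ.isCharacter.mul hα).exists_constituent fun h1 =>
    mul_ne_zero hγ.apply_one_ne_zero (right_ne_zero_of_mul h0) (congrFun h1 1)
  have h3 := h.eq_of_classInner_ne_zero hδ (inner_mul_ne_zero hα hβ hγ h1 hδ.isCharacter h2)
  have h4 := (hγ.isCharacter.mul hα).charDegree_le_of_constituent hδ h2
  rw [← h3, hγ.isCharacter.charDegree_mul hα, hβ.charDegree_mul hα] at h4
  have h5 : 0 < charDegree α := Nat.pos_of_ne_zero fun h5 =>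
    right_ne_zero_of_mul h0 (by rw [← hα.charDegree_eq, h5, Nat.cast_zero])
  rw [hβ.eq_of_constituent_of_degree_eq hγ h1 (by
    rw [← hβ.charDegree_eq, ← hγ.charDegree_eq,
      le_antisymm (Nat.le_of_mul_le_mul_right h4 h5) (hβ.charDegree_le_of_constituent hγ h1)])]
  exact hγ

theorem mem_charCenter_mul (hα : IsCharacter G α) (hβ : IsCharacter G β) (h : IsIrrCharacter G (β * α))
    {z : G} : z ∈ charCenter (β * α) ↔ z ∈ charCenter β ∧ z ∈ charCenter α := by
  have h1 := isIrr_of_mul hα hβ h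
  have h2 := isIrr_of_mul hβ hα (mul_comm β α ▸ h)
  rw [h.mem_charCenter, h1.mem_charCenter, h2.mem_charCenter, hβ.charDegree_mul hα, Pi.mul_apply, norm_mul,
    Nat.cast_mul]
  refine ⟨fun h3 => ?_, fun h3 => by rw [h3.1, h3.2]⟩
  have a1 := hα.norm_le z
  have a2 := hβ.norm_le z
  have a3 : (0 : ℝ) < charDegree α := Nat.cast_pos.2 h2.charDegree_pos
  have a4 : (0 : ℝ) < charDegree β := Nat.cast_pos.2 h1.charDegree_pos
  have a5 := norm_nonneg (α z)
  have a6 := norm_nonneg (β z)
  constructor <;> nlinarith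

theorem isIrr_comp_of_sup_charCenter (hχ : IsIrrCharacter G χ) {U : Type*} [Group U] [Finite U] (f : U →* G)
    (h : f.range ⊔ charCenter χ = ⊤) : IsIrrCharacter U fun u => χ (f u) := by
  have := Fintype.ofFinite G
  have := Fintype.ofFinite U
  have := Fintype.ofFinite (G ⧸ charCenter χ)
  let F : G ⧸ charCenter χ → ℂ := Quotient.lift (fun g => χ g * conj (χ g)) fun a b hab => by
    have h1 : b * a⁻¹ ∈ charCenter χ := by
      simpa using (charCenter_normal χ).conj_mem _ (QuotientGroup.leftRel_apply.1 hab) a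
    have h2 := hχ.apply_mul_of_mem_charCenter h1 a
    rw [inv_mul_cancel_right] at h2
    simp only [Complex.mul_conj, Complex.normSq_eq_norm_sq]
    rw [h2, norm_mul, norm_div, hχ.mem_charCenter.1 h1, hχ.isCharacter.norm_apply_one,
      div_self (Nat.cast_ne_zero.2 hχ.charDegree_pos.ne'), one_mul]
  refine (hχ.isCharacter.comp f).isIrr_of_norm_one ?_
  have h1 : Function.Surjective ((QuotientGroup.mk' (charCenter χ)).comp f) := by
    rw [← MonoidHom.range_eq_top, MonoidHom.range_comp, ← (Subgroup.comap_injective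
      (QuotientGroup.mk'_surjective (charCenter χ))).eq_iff, Subgroup.comap_map_eq, QuotientGroup.ker_mk', h,
      Subgroup.comap_top]
  rw [← hχ.classInner_self, classInner_eq_classInner_mul_one, classInner_eq_classInner_mul_one χ]
  exact (classInner_comp_of_surjective F 1 _ h1).trans
    (classInner_comp_of_surjective F 1 _ (QuotientGroup.mk'_surjective _)).symm

theorem charCenter_comp (hχ : IsIrrCharacter G χ) {U : Type*} [Group U] [Finite U] (f : U →* G)
    (h : IsIrrCharacter U fun u => χ (f u)) : charCenter (fun u => χ (f u)) = (charCenter χ).comap f :=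
  Subgroup.ext fun u => by rw [h.mem_charCenter, Subgroup.mem_comap, hχ.mem_charCenter, charDegree_comp]

theorem inner_res_of_indFun [Fintype G] {H : Subgroup G} [Fintype H] {θ : H → ℂ}
    (h : IsIrrCharacter G (indFun H θ)) : classInner (fun x : H => indFun H θ x) θ = 1 := by
  rw [← frobenius_reciprocity_right H θ _ h.isClassFunction, h.classInner_self]

theorem charCenter_indFun_le [Fintype G] {H : Subgroup G} (hH : IsCoatom H) {θ : H → ℂ} (hθ : IsCharacter H θ)
    (h : IsIrrCharacter G (indFun H θ)) : charCenter (indFun H θ) ≤ H := by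
  have := Fintype.ofFinite H
  by_contra h1
  have h2 := isIrr_comp_of_sup_charCenter h H.subtype (by
    rw [Subgroup.range_subtype]; exact hH.2 _ (left_lt_sup.2 h1))
  have h3 := isIrr_of_isIrr_indFun H hθ h
  have h4 := congrArg charDegree (h2.eq_of_classInner_ne_zero h3 ((inner_res_of_indFun h).trans_ne one_ne_zero))
  rw [charDegree_comp, charDegree_indFun H hθ] at h4
  exact hH.1 (Subgroup.index_eq_one.1 ((Nat.mul_eq_right h3.charDegree_pos.ne').1 h4))

theorem prim_of_mul (hα : IsCharacter G α) (hβ : IsCharacter G β) (h : IsPrimitiveChar (β * α)) :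
    IsPrimitiveChar β :=
  ⟨isIrr_of_mul hα hβ h.1, fun L φ hφ h1 => h.2 L _ (hφ.mul (hα.restrict L))
    (by rw [← h1]; exact indFun_mul_res L φ α hα.isClassFunction)⟩

theorem index_eq_relIndex_inf {N H : Subgroup G} [N.Normal] (h : N ⊔ H = ⊤) : H.index = (N ⊓ H).relIndex N := by
  have h1 := Subgroup.relIndex_mul_index (inf_le_right : N ⊓ H ≤ H)
  rw [← Subgroup.relIndex_mul_index (inf_le_left : N ⊓ H ≤ N), Subgroup.inf_relIndex_right,
    ← Subgroup.relIndex_sup_left, h, Subgroup.relIndex_top_right, mul_comm] at h1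
  exact Nat.eq_of_mul_eq_mul_right N.index_ne_zero_of_finite.bot_lt h1

/-- solvable modulo `K` -/
def Sv (K : Subgroup G) : Prop := ∃ n, derivedSeries G n ≤ K

omit [Finite G] in
theorem Sv.comap {K : Subgroup G} (h : Sv K) {U : Type*} [Group U] (f : U →* G) {L : Subgroup U}
    (hL : K.comap f ≤ L) : Sv L :=
  h.imp fun n hn => (Subgroup.map_le_iff_le_comap.1
    ((map_derivedSeries_le_derivedSeries f n).trans hn)).trans hL

omit [Finite G] in
theorem sv_iff (K : Subgroup G) [K.Normal] : Sv K ↔ Group.IsSolvable (G ⧸ K) := by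
  rw [Group.isSolvable_def]
  refine exists_congr fun n => ?_
  rw [← map_derivedSeries_eq (QuotientGroup.mk'_surjective K), Subgroup.map_eq_bot_iff, QuotientGroup.ker_mk']

/-- homogeneous on the normal subgroups above `N` -/
def QP (N : Subgroup G) (χ : G → ℂ) : Prop := ∀ U : Subgroup G, U.Normal → N ≤ U → Homog fun u : U => χ u

omit [Finite G] in
theorem QP.comp {N : Subgroup G} (h : QP N χ) {Γ : Type*} [Group Γ] (π : Γ →* G) (hπ : Function.Surjective π) :
    QP (N.comap π) fun x => χ (π x) := fun U hU hN =>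
  (h (U.map π) (hU.map π hπ) ((Subgroup.map_comap_eq_self_of_surjective hπ N).ge.trans
    (Subgroup.map_mono hN))).comp (π.subgroupMap U) (π.subgroupMap_surjective U)

/-- `β α` with `α_N` irreducible and `β_N` a multiple of a linear character -/
structure Fac (N : Subgroup G) (α β : G → ℂ) (lam : N →* ℂˣ) : Prop where
  ha : IsCharacter G α
  hb : IsCharacter G β
  irr : IsIrrCharacter G (β * α)
  res : IsIrrCharacter N fun n => α n
  lin : ∀ n : N, β n = β 1 * lam n

theorem exists_factor {G : Type u} [Group G] [Finite G] {χ : G → ℂ} (hχ : IsIrrCharacter G χ) (N : Subgroup G)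
    [N.Normal] (h : Homog fun n : N => χ n) :
    ∃ (Γ : Type u) (_ : Group Γ) (_ : Finite Γ) (π : Γ →* G) (α β : Γ → ℂ) (lam : N.comap π →* ℂˣ),
      Function.Surjective π ∧ Fac (N.comap π) α β lam ∧ (fun x => χ (π x)) = β * α := by
  have := Fintype.ofFinite N
  obtain ⟨η, e, hη, h1⟩ := h
  obtain ⟨Γ, _, _, π, α, L, h⟩ := exists_isLift N hη (conjFun_eq_of_res_eq_smul N hχ h1)
  obtain ⟨β, hβ, h2, h3⟩ := h.exists_corr_top hη hχ (by
    rw [h1, H05.classInner_smul_left, hη.classInner_self, mul_one]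
    exact fun h2 => hχ.apply_one_ne_zero (by simpa [h2] using congrFun h1 1))
  have h4 : (fun x => χ (π x)) = β * α := funext h3
  exact ⟨Γ, _, ‹_›, π, α, β, L⁻¹, h.surj, ⟨h.irr.isCharacter, hβ.isCharacter,
    h4 ▸ hχ.comp_of_surjective π h.surj, h.isIrr_res hη, h2⟩, h4⟩

namespace Fac

variable {N : Subgroup G} [N.Normal] {lam : N →* ℂˣ} (h : Fac N α β lam)
include h

omit [N.Normal] in
theorem irrb : IsIrrCharacter G β := isIrr_of_mul h.ha h.hb h.irr

omit [N.Normal] in
theorem le : N ≤ charCenter β := le_charCenter_of_res_eq_smul h.hb N lam _ h.lin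

theorem inv (g : G) : conjFun N g (fun n => (lam n : ℂ)) = fun n => (lam n : ℂ) := funext fun n =>
  mul_left_cancel₀ h.irrb.apply_one_ne_zero (by
    rw [conjFun_apply, ← h.lin, ← h.lin]; exact h.hb.isClassFunction _ _)

omit [N.Normal] in
theorem prod : IsIrrCharacter N ((fun n => (lam n : ℂ)) * fun n : N => α n) := by
  rw [mul_comm]; exact h.res.mul_monoidHom lam

omit [N.Normal] in
theorem lies {U : Subgroup G} [Fintype U] [Fintype N] (hU : N ≤ U) {γ : U → ℂ} (hγ : IsIrrCharacter U γ)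
    (h1 : classInner (fun u : U => β u) γ ≠ 0) :
    classInner (fun n : N => γ ⟨n, hU n.2⟩) (fun n => (lam n : ℂ)) ≠ 0 := by
  obtain ⟨δ, hδ, h2⟩ := (hγ.isCharacter.comp (Subgroup.inclusion hU)).exists_constituent
    fun h2 => hγ.apply_one_ne_zero (congrFun h2 1)
  have h3 := classInner_comp_ne_zero_of_constituent (Subgroup.inclusion hU) (h.hb.restrict U) hγ h1
    hδ.isCharacter h2
  rw [show (fun z : N => β (Subgroup.inclusion hU z)) = β 1 • fun n => (lam n : ℂ) from funext h.lin,
    H05.classInner_smul_left] at h3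
  rwa [(isIrrCharacter_monoidHom lam).eq_of_classInner_ne_zero hδ (right_ne_zero_of_mul h3)]

theorem qp (hq : QP N (β * α)) : QP N β := fun U hU hN => by
  have := Fintype.ofFinite U
  have := Fintype.ofFinite N
  refine homog_of_forall (h.hb.restrict U) fun γ δ hγ hδ h1 h2 => ?_
  have key : ∀ γ, IsIrrCharacter U γ → classInner (fun u : U => β u) γ ≠ 0 →
      IsIrrCharacter U (γ * fun u : U => α u) ∧
        classInner (fun u : U => (β * α) u) (γ * fun u : U => α u) ≠ 0 := fun γ hγ h1 =>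
    have h3 := gallagher_irr_le N U hN (isIrrCharacter_monoidHom lam) (fun g _ => h.inv g) h.prod
      (h.ha.restrict U) (fun _ => rfl) hγ (h.lies hN hγ h1)
    ⟨h3, inner_mul_ne_zero (h.ha.restrict U) (h.hb.restrict U) hγ h1 h3.isCharacter
      (h3.classInner_self.trans_ne one_ne_zero)⟩
  exact gallagher_inj_le N U hN (isIrrCharacter_monoidHom lam) (fun g _ => h.inv g) h.prod
    (h.ha.restrict U) (fun _ => rfl) hγ (h.lies hN hγ h1) hδ (h.lies hN hδ h2)
    ((hq U hU hN).eq (key γ hγ h1).1 (key δ hδ h2).1 (key γ hγ h1).2 (key δ hδ h2).2)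

theorem exists_ind [Fintype G] {H : Subgroup G} (hN : N ≤ H) {θ : H → ℂ} (hθ : IsCharacter H θ)
    (h1 : indFun H θ = β * α) : ∃ γ, IsCharacter H γ ∧ indFun H γ = β := by
  have := Fintype.ofFinite H
  have := Fintype.ofFinite N
  have h2 := isIrr_of_isIrr_indFun H hθ (h1 ▸ h.irr)
  have h3 : classInner (fun x : H => (β * α) x) θ ≠ 0 := h1 ▸ (inner_res_of_indFun (h1 ▸ h.irr)).trans_ne one_ne_zero
  obtain ⟨γ, hγ, h4, h5⟩ := gallagher_surj_le N H hN (isIrrCharacter_monoidHom lam) (fun g _ => h.inv g) h.prod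
    (h.ha.restrict H) (fun _ => rfl) h2 (by
      obtain ⟨δ, hδ, h4⟩ := (hθ.comp (Subgroup.inclusion hN)).exists_constituent
        fun h4 => h2.apply_one_ne_zero (congrFun h4 1)
      have h5 := classInner_comp_ne_zero_of_constituent (Subgroup.inclusion hN) (h.irr.isCharacter.restrict H) h2 h3
        hδ.isCharacter h4
      rw [show (fun z : N => (β * α) (Subgroup.inclusion hN z)) = β 1 • ((fun n => (lam n : ℂ)) * fun n : N => α n)
        from funext fun n => by simp [h.lin n, mul_assoc], H05.classInner_smul_left] at h5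
      rwa [h.prod.eq_of_classInner_ne_zero hδ (right_ne_zero_of_mul h5)])
  have h6 : indFun H γ * α = β * α := by rw [← h1, h5]; exact (indFun_mul_res H γ α h.ha.isClassFunction).symm
  have h7 := isIrr_of_mul h.ha (isCharacter_indFun H hγ.isCharacter) (h6 ▸ h.irr)
  refine ⟨γ, hγ.isCharacter, gallagher_inj N (isIrrCharacter_monoidHom lam) h.inv h.prod h.ha (fun _ => rfl) h7
    (classInner_comp_ne_zero_of_constituent (Subgroup.inclusion hN) (h7.isCharacter.restrict H) hγ
      ((inner_res_of_indFun h7).trans_ne one_ne_zero) (isCharacter_monoidHom lam) h4) h.irrb ?_ h6⟩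
  rw [show (fun z : N => β z) = β 1 • fun n => (lam n : ℂ) from funext h.lin, H05.classInner_smul_left,
    (isIrrCharacter_monoidHom lam).classInner_self, mul_one]
  exact h.irrb.apply_one_ne_zero

theorem qp_res (hq : QP N (β * α)) {H : Subgroup G} (hH : N ⊔ H = ⊤) :
    QP (N.subgroupOf H) fun x : H => β x := fun U hU hN => by
  have h1 : (U.map H.subtype ⊔ N).Normal := by
    rw [← Subgroup.normalizer_eq_top_iff, eq_top_iff, ← hH]
    refine sup_le (le_sup_right.trans Subgroup.le_normalizer) fun x hx => ?_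
    refine Subgroup.normalizer_inf_normalizer_le_normalizer_sup _ _ ⟨?_, Subgroup.le_normalizer_of_normal (K := ⊤) trivial⟩
    exact Subgroup.le_normalizer_map H.subtype ⟨⟨x, hx⟩, Subgroup.le_normalizer_of_normal (K := ⊤) trivial, rfl⟩
  obtain ⟨ϑ, e, hϑ, h2⟩ := h.qp hq _ h1 le_sup_right
  have he : (e : ℂ) ≠ 0 := fun he => h.irrb.apply_one_ne_zero (by simpa [he] using congrFun h2 1)
  let f : U →* ↥(U.map H.subtype ⊔ N) := (Subgroup.inclusion le_sup_left).comp (H.subtype.subgroupMap U)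
  refine ⟨_, e, isIrr_comp_of_sup_charCenter hϑ f ?_, funext fun u => congrFun h2 (f u)⟩
  rw [eq_top_iff, ← Subgroup.subgroupOf_self, Subgroup.subgroupOf_sup le_sup_left le_sup_right]
  refine sup_le_sup (fun x ⟨u, hu, hx⟩ => ⟨⟨u, hu⟩, Subtype.ext hx⟩) fun x hx => ?_
  have h3 : ‖(e : ℂ) * ϑ x‖ = ‖(e : ℂ) * ϑ 1‖ := (congrArg norm (congrFun h2 x)).symm.trans
    (((h.irrb.mem_charCenter.1 (h.le hx)).trans h.hb.norm_apply_one.symm).trans (congrArg norm (congrFun h2 1)))
  rw [norm_mul, norm_mul, mul_right_inj' (norm_ne_zero_iff.2 he), hϑ.isCharacter.norm_apply_one] at h3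
  exact hϑ.mem_charCenter.2 h3

theorem deg_sq (h1 : ⁅N, N⁆ ≤ charCenter (β * α)) :
    charDegree α ^ 2 = (charCenter (β * α)).relIndex N := by
  have h2 : charCenter (fun n : N => α n) = (charCenter (β * α)).subgroupOf N :=
    (charCenter_comp (isIrr_of_mul h.hb h.ha (mul_comm β α ▸ h.irr)) N.subtype h.res).trans
      (Subgroup.ext fun n => ((mem_charCenter_mul h.ha h.hb h.irr).trans (and_iff_right (h.le n.2))).symm)
  rw [Subgroup.relIndex, ← h2, ← deg_sq_eq_index h.res (by
    rw [h2]; exact Subgroup.map_le_iff_le_comap.1 (N.map_subtype_commutator.trans_le h1)), charDegree_restrict]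

theorem res_eq [Fintype G] (h1 : ⁅N, N⁆ ≤ charCenter (β * α)) {H : Subgroup G} (hH : N ⊔ H = ⊤)
    (h2 : N ⊓ H = charCenter (β * α)) {θ : H → ℂ} (hθ : IsCharacter H θ) (h3 : indFun H θ = β * α) :
    ((fun x : H => conj (α x)) * θ) = fun x : H => β x := by
  have := Fintype.ofFinite H
  have h4 := isIrr_comp_of_sup_charCenter h.irrb H.subtype (by
    rw [Subgroup.range_subtype, eq_top_iff, ← hH, sup_comm]; exact sup_le_sup_left h.le _)
  have h5 := (h.ha.restrict H).conj.mul hθ
  refine h5.eq_of_constituent_of_degree_eq h4 ?_ ?_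
  · rw [classInner_ne_zero_comm, ← H05.classInner_mul_left']
    exact (h3 ▸ inner_res_of_indFun (h3 ▸ h.irr) :).trans_ne one_ne_zero
  have h6 := congrArg charDegree h3
  rw [charDegree_indFun H hθ, h.hb.charDegree_mul h.ha, index_eq_relIndex_inf hH, h2, ← h.deg_sq h1, sq, mul_right_comm,
    mul_left_inj' (isIrr_of_mul h.hb h.ha (mul_comm β α ▸ h.irr)).charDegree_pos.ne'] at h6
  simp only [Pi.mul_apply, OneMemClass.coe_one, Subgroup.subtype_apply]
  rw [h.ha.conj_apply_one, ← h.hb.charDegree_eq, ← h6, ← h.ha.charDegree_eq, ← hθ.charDegree_eq, Nat.cast_mul]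

theorem normal_of_prim (h1 : ⁅N, N⁆ ≤ charCenter (β * α)) {H R : Subgroup G} (hH : N ⊔ H = ⊤)
    (hp : IsPrimitiveChar fun x : H => conj (α x)) (h2 : charCenter (β * α) ≤ R) (h3 : R ≤ H)
    (h4 : H ≤ Subgroup.normalizer (R : Set G))
    (h5 : ((charCenter (β * α)).relIndex R).Coprime ((charCenter (β * α)).relIndex N)) : R.Normal := by
  have := Subgroup.normal_subgroupOf_of_le_normalizer h4
  have ha := isIrr_of_mul h.hb h.ha (mul_comm β α ▸ h.irr)
  obtain ⟨ρ, m, hρ, hm, -, h6⟩ := hp.res_eq_smul (R.subgroupOf H)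
  have h7 : ∀ x : R.subgroupOf H, ‖α x‖ = m * ‖ρ x‖ := fun x => by
    simpa using congrArg norm (congrFun h6 x)
  have h8 : charDegree α = m * charDegree ρ := by
    have := h7 1
    rw [OneMemClass.coe_one, OneMemClass.coe_one, h.ha.norm_apply_one, hρ.isCharacter.norm_apply_one] at this
    exact_mod_cast this
  have h9 : charDegree ρ = 1 := Nat.eq_one_of_dvd_coprimes h5 (by
    rw [← Subgroup.relIndex_subgroupOf h3]
    refine charDegree_dvd_index_of_le_charCenter hρ _ fun x hx => hρ.mem_charCenter.2 ?_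
    have := (h7 x).symm.trans (ha.mem_charCenter.1 ((mem_charCenter_mul h.ha h.hb h.irr).1 hx).2)
    rw [h8, Nat.cast_mul] at this
    exact mul_left_cancel₀ (Nat.cast_ne_zero.2 hm.ne') this) (by
      rw [← h.deg_sq h1, h8]; exact (dvd_mul_left _ _).trans (dvd_pow_self _ two_ne_zero))
  have h10 : R ≤ charCenter α := fun x hx => ha.mem_charCenter.2 (by
    obtain ⟨φ, rfl⟩ := hρ.isCharacter.exists_monoidHom ((deg_eq_one_iff hρ.isCharacter).1 h9)
    rw [h7 ⟨⟨x, h3 hx⟩, hx⟩, h8, h9, norm_monoidHom_eq_one, mul_one, mul_one])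
  rw [← Subgroup.normalizer_eq_top_iff, eq_top_iff, ← hH]
  refine sup_le (fun n hn => Subgroup.mem_normalizer_fintype fun r hr => ?_) h4
  have : n * r * n⁻¹ * r⁻¹ ∈ R := h2 ((mem_charCenter_mul h.ha h.hb h.irr).2 ⟨h.le (by
    simpa [mul_assoc] using mul_mem hn (Subgroup.Normal.conj_mem inferInstance _ (inv_mem hn) r)),
    charKer_le_charCenter (mem_charCenter_iff.1 (h10 hr) n)⟩)
  simpa using mul_mem this hr

end Fac

theorem exists_prim_solv {Q : Type*} [Group Q] [Finite Q] [Group.IsSolvable Q] {H : Subgroup Q} (hH : IsCoatom H)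
    (hc : H.normalCore = ⊥) (h0 : H ≠ ⊥) : ∃ N R : Subgroup Q, N.Normal ∧ IsMulCommutative N ∧ N ⊓ H = ⊥ ∧ N ⊔ H = ⊤ ∧
      R ≤ H ∧ H ≤ Subgroup.normalizer (R : Set Q) ∧ (Nat.card R).Coprime (Nat.card N) ∧ ¬ R.Normal := by
  have := (Subgroup.nontrivial_iff_ne_bot H).2 h0
  have := H.subtype_injective.nontrivial
  have hc' : ∀ K : Subgroup Q, K.Normal → K ≤ H → K = ⊥ := fun K _ h =>
    le_bot_iff.1 (hc ▸ Subgroup.normal_le_normalCore.2 h)
  obtain ⟨N, h1, h2, h3, h4, p, hp, h5⟩ := H02.exists_minimal_normal_elementary (G := Q)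
  obtain ⟨R, h6, h7, -, -, q, hq, h8⟩ := H02.exists_minimal_normal_elementary (G := H)
  have h9 : N ⊔ H = ⊤ := hH.2 _ (right_lt_sup.2 fun h => h2 (hc' N h1 h))
  have hn : ∀ K : Subgroup Q, N ≤ Subgroup.normalizer (K : Set Q) → H ≤ Subgroup.normalizer (K : Set Q) → K.Normal :=
    fun K h h' => by rw [← Subgroup.normalizer_eq_top_iff, eq_top_iff, ← h9]; exact sup_le h h'
  have h10 : H ≤ Subgroup.normalizer (R.map H.subtype : Set Q) := fun x hx =>
    Subgroup.le_normalizer_map H.subtype ⟨⟨x, hx⟩, Subgroup.le_normalizer_of_normal (K := ⊤) trivial, rfl⟩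
  have h11 : ¬ (R.map H.subtype).Normal := fun h => h7
    ((Subgroup.map_eq_bot_iff_of_injective R H.subtype_injective).1 (hc' _ h (Subgroup.map_subtype_le R)))
  have := Fact.mk hp
  have := Fact.mk hq
  have hN := H02.isPGroup_of_pow_eq_one h5
  have hR := (H02.isPGroup_of_pow_eq_one h8).map H.subtype
  refine ⟨N, R.map H.subtype, h1, h4, hc' _ (hn _ (fun n hn => Subgroup.mem_normalizer_fintype fun x hx => ?_)
    fun x hx => Subgroup.inf_normalizer_le_normalizer_inf ⟨Subgroup.le_normalizer_of_normal (K := ⊤) trivial,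
      Subgroup.le_normalizer hx⟩) inf_le_right, h9, Subgroup.map_subtype_le R, h10, ?_, h11⟩
  · rwa [setLike_mul_comm hn hx.1, mul_inv_cancel_right]
  by_cases hpq : q = p
  swap
  · exact IsPGroup.coprime_card_of_ne q p hpq _ _ hR hN
  subst hpq
  have := hn (R.map H.subtype ⊔ N) (le_sup_right.trans Subgroup.le_normalizer) fun x hx =>
    Subgroup.normalizer_inf_normalizer_le_normalizer_sup _ _ ⟨h10 hx, Subgroup.le_normalizer_of_normal (K := ⊤) trivial⟩
  have := (hR.to_sup_of_normal_right hN).isNilpotent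
  exact (h11 (hn _ ((H02.minimal_normal_le_centralizer_of_isNilpotent (F := R.map H.subtype ⊔ N) h3).trans
    ((Subgroup.centralizer_le (SetLike.coe_mono le_sup_left)).trans (Subgroup.centralizer_le_normalizer _))) h10)).elim

theorem berger_step {G : Type u} [Group G] [Fintype G] {N H : Subgroup G} [N.Normal] (hN : N ≤ H) (hH : H ≠ ⊤)
    {θ : H → ℂ} (hθ : IsCharacter H θ) (hχ : IsIrrCharacter G (indFun H θ)) (hs : Sv N) (hq : QP N (indFun H θ))
    (ih : ∀ (Γ : Type u) [Group Γ] [Finite Γ] (β : Γ → ℂ), IsIrrCharacter Γ β → Sv (charCenter β) →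
      QP (charCenter β) β → (charCenter β).index ≤ N.index → IsPrimitiveChar β) : False := by
  obtain ⟨Γ, _, _, π, α, β, lam, hπ, h, h1⟩ := exists_factor hχ N (hq N inferInstance le_rfl)
  have := Fintype.ofFinite Γ
  obtain ⟨γ, hγ, h2⟩ := h.exists_ind (Subgroup.comap_mono hN) (hθ.comp (π.subgroupComap H))
    ((funext (indFun_comap H π hπ θ)).trans h1)
  have := (ih Γ β h.irrb (hs.comap π h.le) (fun U hU h3 => h.qp (h1 ▸ hq.comp π hπ) U hU (h.le.trans h3))
    (Subgroup.index_comap_of_surjective N hπ ▸ Subgroup.index_antitone h.le)).2 _ γ hγ h2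
  exact hH (Subgroup.comap_injective hπ this)

theorem berger_aux (n : ℕ) : ∀ (G : Type u) [Group G] [Finite G] (χ : G → ℂ), IsIrrCharacter G χ →
    Sv (charCenter χ) → QP (charCenter χ) χ → (charCenter χ).index < n → IsPrimitiveChar χ := by
  induction n with
  | zero => exact fun _ _ _ _ _ _ _ h => absurd h (Nat.not_lt_zero _)
  | succ n ih =>
  intro G _ _ χ hχ hs hq hn
  refine ⟨hχ, fun L φ hφ h1 => by_contra fun hL => ?_⟩
  obtain ⟨H, hH, hLH⟩ := (eq_top_or_exists_le_coatom L).resolve_left hL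
  have := Fintype.ofFinite H
  obtain ⟨θ, hθ, rfl⟩ : ∃ θ, IsCharacter H θ ∧ indFun H θ = χ :=
    ⟨_, isCharacter_indFun _ (hφ.comp (Subgroup.subgroupOfEquivOfLe hLH).toMonoidHom), (indFun_trans L H hLH φ).trans h1⟩
  clear h1
  have hZ := charCenter_indFun_le hH hθ hχ
  set Z := charCenter (indFun H θ) with hZd
  have hZ' := Subgroup.normal_le_normalCore.2 hZ
  by_cases h2 : H.normalCore ≤ Z
  swap
  · exact berger_step H.normalCore_le hH.1 hθ hχ (hs.imp fun n h => h.trans hZ') (fun U hU h => hq U hU (hZ'.trans h))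
      fun Γ _ _ β h3 h4 h5 h6 => ih Γ β h3 h4 h5 (h6.trans_lt
        ((Subgroup.index_strictAnti (lt_of_le_not_ge hZ' h2)).trans_le (Nat.le_of_lt_succ hn)))
  have hi : 1 < H.index := Nat.lt_of_le_of_ne H.index_ne_zero_of_finite.bot_lt (Ne.symm (mt Subgroup.index_eq_one.1 hH.1))
  have := (sv_iff Z).1 hs
  have hm := QuotientGroup.mk'_surjective Z
  have hc : (H.map (QuotientGroup.mk' Z)).comap (QuotientGroup.mk' Z) = H := by
    rw [Subgroup.comap_map_eq, QuotientGroup.ker_mk', sup_eq_left.2 hZ]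
  obtain ⟨N, R, h3, h4, h5, h6, h7, h8, h9, h10⟩ := exists_prim_solv (H := H.map (QuotientGroup.mk' Z))
    ⟨fun h => hH.1 (by rw [← hc, h, Subgroup.comap_top]), fun K hK => Subgroup.comap_injective hm
      (hH.2 _ (hc.ge.trans_lt ((Subgroup.comap_lt_comap_of_surjective hm).2 hK)))⟩ (by
      rw [← (Subgroup.comap_injective hm).eq_iff, MonoidHom.comap_bot, QuotientGroup.ker_mk']
      refine le_antisymm ((Subgroup.normal_le_normalCore.2 ?_).trans h2) fun x hx => ?_
      · exact (Subgroup.comap_mono (Subgroup.normalCore_le _)).trans hc.le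
      · rw [Subgroup.mem_comap, QuotientGroup.mk'_apply, (QuotientGroup.eq_one_iff x).2 hx]; exact one_mem _) (by
      intro h3
      rw [Subgroup.map_eq_bot_iff, QuotientGroup.ker_mk'] at h3
      have h4 := charDegree_sq_le_index_of_le_charCenter hχ H h3
      rw [charDegree_indFun H hθ] at h4
      have := (isIrr_of_isIrr_indFun H hθ hχ).charDegree_pos
      nlinarith [Nat.mul_le_mul_left H.index this])
  have hZN : Z ≤ N.comap (QuotientGroup.mk' Z) := (QuotientGroup.ker_mk' Z).ge.trans (Subgroup.ker_le_comap _ _)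
  obtain ⟨Γ, _, _, π, α, β, lam, hπ, h, h1⟩ := exists_factor hχ (N.comap (QuotientGroup.mk' Z)) (hq _ inferInstance hZN)
  have := Fintype.ofFinite Γ
  have hf := hm.comp hπ
  rw [← MonoidHom.coe_comp] at hf
  have hk : charCenter (β * α) = Subgroup.comap ((QuotientGroup.mk' Z).comp π) ⊥ := by
    rw [← h1, charCenter_comp hχ π (h1 ▸ h.irr), ← Subgroup.comap_comap, MonoidHom.comap_bot, QuotientGroup.ker_mk']
  have e1 : (N.comap (QuotientGroup.mk' Z)).comap π = N.comap ((QuotientGroup.mk' Z).comp π) := rfl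
  have e2 : H.comap π = (H.map (QuotientGroup.mk' Z)).comap ((QuotientGroup.mk' Z).comp π) := by
    rw [← Subgroup.comap_comap, hc]
  have a1 : ⁅(N.comap (QuotientGroup.mk' Z)).comap π, (N.comap (QuotientGroup.mk' Z)).comap π⁆ ≤ charCenter (β * α) := by
    rw [hk, e1, Subgroup.commutator_le]
    intro a ha b hb
    rw [Subgroup.mem_comap, map_commutatorElement, Subgroup.mem_bot, commutatorElement_eq_one_iff_mul_comm]
    exact setLike_mul_comm (s := N) ha hb
  have a2 : (N.comap (QuotientGroup.mk' Z)).comap π ⊔ H.comap π = ⊤ := by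
    rw [e1, e2, Subgroup.comap_sup_eq _ _ _ hf, h6, Subgroup.comap_top]
  have a3 : (N.comap (QuotientGroup.mk' Z)).comap π ⊓ H.comap π = charCenter (β * α) := by
    rw [e1, e2, ← Subgroup.comap_inf, h5, hk]
  have a4 := h.res_eq a1 a2 a3 (hθ.comp (π.subgroupComap H)) ((funext (indFun_comap H π hπ θ)).trans h1)
  have a5 := isIrr_comp_of_sup_charCenter h.irrb (H.comap π).subtype (by
    rw [Subgroup.range_subtype, eq_top_iff, ← a2, sup_comm]; exact sup_le_sup_left h.le _)
  have a6 : ((N.comap (QuotientGroup.mk' Z)).comap π).subgroupOf (H.comap π) ≤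
      charCenter fun x : H.comap π => β x := (Subgroup.comap_mono h.le).trans (charCenter_comp h.irrb _ a5).ge
  have a7 := ih (H.comap π) _ a5 ((hs.comap π (Subgroup.comap_mono hZN)).comap _ a6)
    (fun U hU h3 => h.qp_res (h1 ▸ QP.comp (fun U hU h => hq U hU (hZN.trans h)) π hπ) a2 U hU (a6.trans h3)) (by
      refine (Subgroup.index_antitone ((Subgroup.comap_mono (Subgroup.comap_mono hZN)).trans a6)).trans_lt ?_
      have h11 := Subgroup.relIndex_mul_index hZ
      have h12 : (Z.comap π).relIndex (H.comap π) = Z.relIndex H := by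
        rw [Subgroup.relIndex_comap, Subgroup.map_comap_eq_self_of_surjective hπ]
      refine h12.trans_lt ?_
      have := Z.index_ne_zero_of_finite.bot_lt
      have := Nat.pos_of_mul_pos_left (h11 ▸ this : 0 < _)
      have := Nat.pos_of_mul_pos_right (h11 ▸ Z.index_ne_zero_of_finite.bot_lt : 0 < _)
      nlinarith)
  have := h.normal_of_prim a1 (R := R.comap ((QuotientGroup.mk' Z).comp π)) a2
    (prim_of_mul (hθ.comp (π.subgroupComap H)) (h.ha.restrict _).conj (a4 ▸ a7)) (hk ▸ Subgroup.comap_mono bot_le)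
    (e2 ▸ Subgroup.comap_mono h7) (e2 ▸ (Subgroup.comap_mono h8).trans (Subgroup.le_normalizer_comap _)) (by
      rwa [hk, e1, Subgroup.relIndex_comap, Subgroup.relIndex_comap, Subgroup.map_comap_eq_self_of_surjective hf,
        Subgroup.map_comap_eq_self_of_surjective hf, Subgroup.relIndex_bot_left, Subgroup.relIndex_bot_left])
  exact h10 (Subgroup.map_comap_eq_self_of_surjective hf R ▸ this.map _ hf)

/-- Berger's theorem. -/
theorem berger (hχ : IsIrrCharacter G χ) (hs : Sv (charCenter χ)) (hq : QP (charCenter χ) χ) : IsPrimitiveChar χ :=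
  berger_aux _ G χ hχ hs hq (Nat.lt_succ_self _)

theorem berger_rel {G : Type*} [Group G] [Fintype G] {N H : Subgroup G} [N.Normal] (hN : N ≤ H) (hH : H ≠ ⊤)
    {θ : H → ℂ} (hθ : IsCharacter H θ) (hχ : IsIrrCharacter G (indFun H θ)) (hs : Sv N) : ¬ QP N (indFun H θ) :=
  fun hq => berger_step hN hH hθ hχ hs hq fun _ _ _ _ h1 h2 h3 _ => berger h1 h2 h3

end H07
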