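import Cfsg.Agent.H07.Real2
import Cfsg.Agent.H07.BrauerLocal
import Cfsg.Agent.H07.Berger
import Cfsg.Agent.H07.Glb6

/-! Extraspecial groups, going down, relative M-groups, Dade's detection theorem. -/

namespace H07
open Cfsg H05 H06 H01
open scoped ComplexConjugate commutatorElement Pointwise

variable {G : Type*} [Group G] {χ : G → ℂ}

section extraspecial
variable [Finite G] {p : ℕ} [hp : Fact p.Prime] (h : IsExtraspecial p G)
include h

theorem es_faithful (hχ : IsIrrCharacter G χ) (h1 : charDegree χ ≠ 1) : charKer χ = ⊥ := by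
  haveI := h.1.1.isNilpotent
  by_contra hk
  have a1 := H04.inf_center_ne_bot _ hk
  have a2 : charKer χ ⊓ Subgroup.center G = Subgroup.center G := by
    have := Subgroup.card_dvd_of_le (inf_le_right : charKer χ ⊓ Subgroup.center G ≤ _)
    rw [h.2] at this
    exact H04.eq_of_le_of_card_le inf_le_right (by
      rw [h.2, ((Nat.dvd_prime hp.out).1 this).resolve_left (mt Subgroup.card_eq_one.1 a1)])
  exact h1 ((deg_eq_one_iff hχ.isCharacter).2 ((commutator_le_charKer_iff hχ).1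
    (h.1.2.2.le.trans (a2.ge.trans inf_le_left))))

theorem es_deg_sq (hχ : IsIrrCharacter G χ) (h1 : charDegree χ ≠ 1) :
    charDegree χ ^ 2 = (Subgroup.center G).index := by
  rw [deg_sq_eq_index hχ (h.1.2.2.le.trans center_le_charCenter), H06.charCenter_eq_center (es_faithful h hχ h1)]

theorem es_index {n : ℕ} (hc : Nat.card G = p ^ (2 * n + 1)) : (Subgroup.center G).index = (p ^ n) ^ 2 := by
  have h2 := (Subgroup.center G).card_mul_index
  rw [h.2, hc, pow_succ'] at h2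
  rw [Nat.eq_of_mul_eq_mul_left hp.out.pos h2, ← pow_mul, mul_comm]

theorem es_deg {n : ℕ} (hc : Nat.card G = p ^ (2 * n + 1)) (hχ : IsIrrCharacter G χ) (h1 : charDegree χ ≠ 1) :
    charDegree χ = p ^ n :=
  Nat.pow_left_injective two_ne_zero ((es_deg_sq h hχ h1).trans (es_index h hc))

theorem es_card : Nat.card {χ : IrrCharacter G // charDegree χ.1 ≠ 1} = p - 1 := by
  classical
  have h1 := card_eq_lin_add (G := G)
  have h2 := (Subgroup.center G).card_mul_index
  rw [Finset.sum_congr rfl (g := fun _ => (Subgroup.center G).index) (fun χ hχ =>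
    es_deg_sq h χ.2 (Finset.mem_filter.1 hχ).2),
    Finset.sum_const, smul_eq_mul, ← Fintype.card_subtype, ← Nat.card_eq_fintype_card, h.1.2.2] at h1
  rw [h.2] at h2
  have : 0 < (Subgroup.center G).index := Nat.pos_of_ne_zero Subgroup.index_ne_zero_of_finite
  exact Nat.eq_sub_of_add_eq (Nat.eq_of_mul_eq_mul_right this (by rw [h2, h1]; ring))

end extraspecial

theorem going_down [Fintype G] (K L : Subgroup G) [hK : K.Normal] [hL : L.Normal] (hLK : L ≤ K)
    (hchief : ∀ M : Subgroup G, M.Normal → L ≤ M → M ≤ K → M = L ∨ M = K) (hab : ⁅K, K⁆ ≤ L) {θ : K → ℂ}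
    (hθ : IsIrrCharacter K θ) (hinv : ∀ g, conjFun K g θ = θ) :
    IsIrrCharacter L (fun x : L => θ ⟨x, hLK x.2⟩) ∨
    (∃ (φ : L → ℂ) (e : ℕ), IsIrrCharacter L φ ∧ (fun x : L => θ ⟨x, hLK x.2⟩) = (e : ℂ) • φ ∧ e ^ 2 = L.relIndex K) ∨
    ∃ F : Finset (L → ℂ), (∀ φ ∈ F, IsIrrCharacter L φ) ∧ F.card = L.relIndex K ∧
      (fun x : L => θ ⟨x, hLK x.2⟩) = ∑ φ ∈ F, φ := by
  classical
  have hab' : commutator K ≤ L.subgroupOf K := by
    rw [commutator_def, Subgroup.commutator_le]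
    exact fun a _ b _ => hab (Subgroup.commutator_mem_commutator a.2 b.2)
  by_cases hv : ∀ k : K, k ∉ L.subgroupOf K → θ k = 0
  swap
  · left
    push Not at hv
    obtain ⟨k₀, hk₀, h0⟩ := hv
    refine (isIrr_subgroupOf_iff L K hLK _).1 (isIrr_res_of_forall_hom _ hab' hθ fun lam h1 h2 => ?_)
    have h3 : ∀ k : K, θ k ≠ 0 → lam k = 1 := fun k hk => Units.ext ((mul_eq_left₀ hk).1 (congrFun h2 k))
    let M := L ⊔ Subgroup.closure (Subtype.val '' {k : K | θ k ≠ 0})
    haveI : (Subgroup.closure (Subtype.val '' {k : K | θ k ≠ 0})).Normal := ⟨fun x hx g => by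
      refine (?_ : _ ≤ (Subgroup.closure (Subtype.val '' {k : K | θ k ≠ 0})).comap (MulAut.conj g).toMonoidHom) hx
      rw [Subgroup.closure_le]
      rintro _ ⟨k, hk, rfl⟩
      exact Subgroup.subset_closure ⟨⟨_, hK.conj_mem k k.2 g⟩, (congrFun (hinv g) k).trans_ne hk, rfl⟩⟩
    have hM : M ≤ lam.ker.map K.subtype := sup_le (fun l hl => ⟨⟨l, hLK hl⟩, h1 _ hl, rfl⟩)
      ((Subgroup.closure_le _).2 (by rintro _ ⟨k, hk, rfl⟩; exact ⟨k, h3 k hk, rfl⟩))
    rcases hchief M inferInstance le_sup_left (hM.trans (Subgroup.map_subtype_le _)) with h | h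
    · exact (hk₀ (h.le (Subgroup.mem_sup_right (Subgroup.subset_closure ⟨k₀, h0, rfl⟩)))).elim
    · ext k
      obtain ⟨k', h4, h5⟩ := hM (h.ge k.2)
      rw [← Subtype.ext h5, MonoidHom.mem_ker.1 h4]; rfl
  right
  let e := Subgroup.subgroupOfEquivOfLe hLK
  obtain ⟨φ, hφ, h0⟩ := exists_mult_under (Subgroup.inclusion hLK) hθ
  have hφ' := (isIrr_subgroupOf_iff L K hLK φ).2 hφ
  have h0' : classInner (fun n : L.subgroupOf K => θ n) (fun n => φ (e n)) ≠ 0 :=
    (mult_sub_ne_zero _ hθ.isCharacter hφ'.isCharacter).1 (by rwa [mult_subgroupOf])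
  have h1 := (norm_res_eq_index_iff _ hθ).2 hv
  rw [clifford_norm _ hθ hφ' h0'] at h1
  have h2 := clifford_finset _ hθ hφ' h0'
  have h3 := card_image_conjFun (L.subgroupOf K) (fun n => φ (e n))
  have hI : inertia (L.subgroupOf K) (fun n => φ (e n)) = (inertia L φ).subgroupOf K := by
    ext k
    rw [Subgroup.mem_subgroupOf, mem_inertia', mem_inertia']
    exact ⟨fun h n => h (e.symm n), fun h n => h (e n)⟩
  haveI : (K ⊓ inertia L φ).Normal := ⟨fun x hx g => ⟨hK.conj_mem x hx.1 g, by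
    obtain ⟨k, hk, e1⟩ := exists_cjA_of_under hLK Subgroup.le_normalizer_of_normal hθ hφ (isIrr_conjFun L hφ g) h0 (by
      have a1 : g ∈ stab θ := by rw [stab_eq_inertia]; exact hinv g
      exact (mult_cjA_right hLK a1 (Subgroup.le_normalizer_of_normal (Subgroup.mem_top g)) φ).trans_ne h0)
    have a2 : g * k⁻¹ ∈ inertia L φ := (conjFun_eq_conjFun_iff L).1 e1
    have a3 : k * x * k⁻¹ ∈ inertia L φ := by
      have := (inertia L φ).mul_mem (le_inertia L hφ.isClassFunction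
        (hab (Subgroup.commutator_mem_commutator hk hx.1))) hx.2
      simpa [commutatorElement_def] using this
    have := (inertia L φ).mul_mem ((inertia L φ).mul_mem a2 a3) ((inertia L φ).inv_mem a2)
    simpa [mul_assoc] using this⟩⟩
  obtain ⟨m, hm⟩ := (hθ.isCharacter.restrict (L.subgroupOf K)).exists_classInner_eq_nat hφ'.isCharacter
  rw [hm, hI] at h1
  rw [hI] at h3
  rw [hm] at h2
  have h4 : ∀ x : L, θ ⟨x, hLK x.2⟩ = m * ∑ ψ ∈ Finset.univ.image fun k : K =>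
      conjFun (L.subgroupOf K) k fun n => φ (e n), ψ (e.symm x) := fun x =>
    (congrFun h2 (e.symm x)).trans (by rw [Pi.smul_apply, Finset.sum_apply]; rfl)
  rcases hchief _ this (le_inf hLK (le_inertia L hφ.isClassFunction)) inf_le_left with h | h
  · right
    have h6 : (inertia L φ).subgroupOf K = L.subgroupOf K := by rw [← Subgroup.inf_subgroupOf_left, h]
    rw [h6] at h1 h3
    have h5 : (m : ℂ) = 1 := by
      have : m ^ 2 = 1 := by
        exact_mod_cast (mul_eq_right₀ (Nat.cast_ne_zero.2 Subgroup.index_ne_zero_of_finite)).1 h1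
      rw [(pow_eq_one_iff.1 this).resolve_right two_ne_zero, Nat.cast_one]
    have hi : Function.Injective fun (ψ : L.subgroupOf K → ℂ) (x : L) => ψ (e.symm x) :=
      e.symm.surjective.injective_comp_right
    refine ⟨Finset.map ⟨_, hi⟩ _, fun ψ hψ => ?_, (Finset.card_map _).trans h3, funext fun x => ?_⟩
    · obtain ⟨ψ', hψ', rfl⟩ := Finset.mem_map.1 hψ
      obtain ⟨k, -, rfl⟩ := Finset.mem_image.1 hψ'
      exact (isIrr_conjFun _ hφ' k).comp_mulEquiv e.symm
    · rw [h4, h5, one_mul, Finset.sum_map, Finset.sum_apply]; rfl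
  · left
    have h5 : (inertia L φ).subgroupOf K = ⊤ := Subgroup.subgroupOf_eq_top.2 (h.ge.trans inf_le_right)
    rw [h5, Subgroup.index_top, Nat.cast_one, mul_one] at h1
    refine ⟨φ, m, hφ, funext fun x => ?_, by exact_mod_cast h1⟩
    rw [h4, Finset.image_congr (g := fun _ n => φ (e n)) (fun k _ => (mem_inertia _).1 (by
      rw [hI, h5]; trivial)), Finset.image_const Finset.univ_nonempty]
    simp

theorem inner_sum_irr [Fintype G] {F : Finset (G → ℂ)} (hF : ∀ φ ∈ F, IsIrrCharacter G φ) {φ : G → ℂ} (hφ : φ ∈ F) :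
    classInner (∑ ψ ∈ F, ψ) φ = 1 := by
  rw [H05.classInner_sum_left, Finset.sum_eq_single_of_mem φ hφ fun ψ hψ hne => (hF ψ hψ).classInner_of_ne (hF φ hφ) hne,
    (hF φ hφ).classInner_self]

theorem exists_ind_map [Fintype G] (H : Subgroup G) [Fintype H] (T : Subgroup H) (η : T → ℂ) :
    ∃ η' : T.map H.subtype → ℂ, (IsIrrCharacter T η → IsIrrCharacter _ η') ∧ η' 1 = η 1 ∧
      indFun (T.map H.subtype) η' = indFun H (indFun T η) :=
  ⟨fun x => η ((T.equivMapOfInjective _ H.subtype_injective).symm x), fun h => h.comp_mulEquiv _, by simp,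
    (indFun_map_subtype H T η _ fun l => congrArg η ((T.equivMapOfInjective _ H.subtype_injective).symm_apply_apply l)).symm⟩

theorem rel_monomial [Fintype G] (N : Subgroup G) [N.Normal] (hsolv : Group.IsSolvable (G ⧸ N))
    (hchief : ∀ (H K L : Subgroup G), N ≤ L → L < K → K ≤ H → (∀ h ∈ H, ∀ k ∈ K, h * k * h⁻¹ ∈ K) →
      (∀ h ∈ H, ∀ l ∈ L, h * l * h⁻¹ ∈ L) → (∀ M : Subgroup G, L ≤ M → M ≤ K → (∀ h ∈ H, ∀ m ∈ M, h * m * h⁻¹ ∈ M) →
      M = L ∨ M = K) → ¬ IsSquare (L.relIndex K)) (hχ : IsIrrCharacter G χ) :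
    ∃ (H : Subgroup G) (hNH : N ≤ H) (ψ : H → ℂ), IsIrrCharacter H ψ ∧ indFun H ψ = χ ∧
      IsIrrCharacter N (fun n : N => ψ ⟨n, hNH n.2⟩) := by
  classical
  obtain ⟨H, ⟨hNH, ψ, hψ, hind⟩, hmin⟩ := exists_minimal_of_wellFoundedLT
    (fun H : Subgroup G => N ≤ H ∧ ∃ ψ : H → ℂ, IsIrrCharacter H ψ ∧ indFun H ψ = χ)
    ⟨⊤, le_top, fun x => χ x, hχ.comp_mulEquiv Subgroup.topEquiv, indFun_top χ hχ.isClassFunction⟩
  obtain ⟨K, ⟨hKn, hNK, hK⟩, hKmin⟩ := exists_minimal_of_wellFoundedLT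
    (fun K : Subgroup H => K.Normal ∧ N.subgroupOf H ≤ K ∧ IsIrrCharacter K (fun k => ψ k))
    ⟨⊤, inferInstance, le_top, hψ.comp_mulEquiv Subgroup.topEquiv⟩
  refine ⟨H, hNH, ψ, hψ, hind, ?_⟩
  rcases hNK.eq_or_lt with rfl | hlt
  · exact (isIrr_subgroupOf_iff N H hNH _).1 hK
  exfalso
  obtain ⟨L, ⟨hLn, hNL, hLK⟩, hLmax⟩ := exists_maximal_of_wellFoundedGT
    (fun L : Subgroup H => L.Normal ∧ N.subgroupOf H ≤ L ∧ L < K) ⟨_, inferInstance, le_rfl, hlt⟩
  have hch : ∀ M : Subgroup H, M.Normal → L ≤ M → M ≤ K → M = L ∨ M = K := fun M h1 h2 h3 =>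
    h3.eq_or_lt.symm.imp_left fun h4 => le_antisymm (hLmax ⟨h1, hNL.trans h2, h4⟩ h2) h2
  haveI := (sv_iff L).1 (((sv_iff N).2 hsolv).comap H.subtype hNL)
  rcases going_down K L hLK.le hch (H02.chief_factor_elementary hLK hch).1 hK (conjFun_res K hψ.isClassFunction) with
    h | ⟨φ, e, -, -, h⟩ | ⟨F, h1, h2, h3⟩
  · exact hLK.not_ge (hKmin ⟨hLn, hNL, h⟩ hLK.le)
  · have hn : ∀ M : Subgroup H, M.Normal → ∀ h ∈ H, ∀ k ∈ M.map H.subtype, h * k * h⁻¹ ∈ M.map H.subtype := by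
      rintro M hM h hh _ ⟨k, hk, rfl⟩
      exact ⟨_, hM.conj_mem k hk ⟨h, hh⟩, rfl⟩
    refine hchief H (K.map H.subtype) (L.map H.subtype) (fun n hn => ⟨⟨n, hNH hn⟩, hNL hn, rfl⟩)
      ((Subgroup.map_lt_map_iff_of_injective H.subtype_injective).2 hLK) (Subgroup.map_subtype_le _) (hn K hKn)
      (hn L hLn) (fun M a1 a2 a3 => ?_) ⟨e, by
        rw [Subgroup.relIndex_map_map_of_injective _ _ H.subtype_injective, ← h, sq]⟩
    rw [← Subgroup.map_subgroupOf_eq_of_le (a2.trans (Subgroup.map_subtype_le _))]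
    refine (hch (M.subgroupOf H) ⟨fun m hm h => a3 h h.2 m hm⟩ (Subgroup.map_le_iff_le_comap.1 a1) fun m hm => ?_).imp
      (congrArg _) (congrArg _)
    obtain ⟨k, hk, e⟩ := a2 hm
    exact Subtype.ext e ▸ hk
  · obtain ⟨φ, hφ, φ', hφ', hne⟩ := Finset.one_lt_card.1 ((Nat.one_lt_iff_ne_zero_and_ne_one.2
      ⟨Subgroup.index_ne_zero_of_finite, mt Subgroup.relIndex_eq_one.1 hLK.not_ge⟩).trans_eq h2.symm)
    have a1 : ∀ φ ∈ F, classInner (fun x : L => ψ x) φ = 1 := fun φ hφ => by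
      rw [show (fun x : L => ψ x) = _ from h3]; exact inner_sum_irr h1 hφ
    have a2 := (a1 φ hφ).trans_ne one_ne_zero
    obtain ⟨η, b1, b2, -⟩ := clifford_corr_surj L _ (le_inertia L (h1 φ hφ).isClassFunction) (h1 φ hφ) rfl hψ a2
    obtain ⟨η', c1, -, c2⟩ := exists_ind_map H _ η
    have a3 := hmin (y := (inertia L φ).map H.subtype) ⟨fun n hn => ⟨⟨n, hNH hn⟩, le_inertia L (h1 φ hφ).isClassFunction (hNL hn), rfl⟩, η', c1 b1,
      by rw [c2, b2, hind]⟩ (Subgroup.map_subtype_le _)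
    have a4 := a1 φ' hφ'
    rw [clifford_invariant L hψ (h1 φ hφ) a2 (fun g => by
      obtain ⟨k, hk, e⟩ := a3 g.2
      exact Subtype.ext e ▸ hk), H05.classInner_smul_left, (h1 φ hφ).classInner_of_ne (h1 φ' hφ') hne, mul_zero] at a4
    exact zero_ne_one a4

/-- all Sylow subgroups are abelian -/
def AbSyl (G : Type*) [Group G] : Prop := ∀ p : ℕ, p.Prime → ∀ Q : Subgroup G, IsPGroup p Q → IsMulCommutative Q

theorem AbSyl.of_injective {H : Type*} [Group H] (h : AbSyl G) (f : H →* G) (hf : Function.Injective f) : AbSyl H :=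
  fun p hp Q hQ => ⟨⟨fun a b => Subtype.ext (hf (by
    simpa using congrArg Subtype.val ((h p hp _ (hQ.map f)).1.1 ⟨_, a, a.2, rfl⟩ ⟨_, b, b.2, rfl⟩)))⟩⟩

theorem AbSyl.of_surjective {H : Type*} [Group H] [Finite G] (h : AbSyl G) (f : G →* H) (hf : Function.Surjective f) :
    AbSyl H := fun p hp Q hQ => by
  haveI := Fact.mk hp
  haveI := Finite.of_surjective f hf
  obtain ⟨S, hS⟩ := hQ.exists_le_sylow
  obtain ⟨P, rfl⟩ := Sylow.mapSurjective_surjective hf p S
  refine ⟨⟨fun a b => Subtype.ext ?_⟩⟩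
  obtain ⟨x, hx, e⟩ := hS a.2
  obtain ⟨y, hy, e'⟩ := hS b.2
  simpa [← e, ← e'] using congrArg (fun z : P => f z) ((h p hp _ P.2).1.1 ⟨x, hx⟩ ⟨y, hy⟩)

theorem prim_linear [Finite G] [Group.IsSolvable G] (hχ : IsPrimitiveChar χ) {Y : Type*} [Group Y] [Finite Y]
    (hY : AbSyl Y) (f : Y →* G) [hf : f.range.Normal] (h : IsIrrCharacter Y fun y => χ (f y)) : χ 1 = 1 := by
  obtain ⟨ψ, h1, h2, h3⟩ := exists_faithful_quotient hχ.1
  have h4 : IsPrimitiveChar ψ := IsPrimitiveChar.of_comp_surjective (QuotientGroup.mk' _)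
    (QuotientGroup.mk'_surjective _) h1 (h3 ▸ hχ)
  obtain ⟨g, hg⟩ : ∃ g, g = (QuotientGroup.mk' (charKer χ)).comp f := ⟨_, rfl⟩
  haveI : g.range.Normal := by
    rw [hg, MonoidHom.range_comp]; exact hf.map _ (QuotientGroup.mk'_surjective _)
  have h5 := hY.of_surjective _ g.rangeRestrict_surjective
  have h6 : fittingOf g.range ≤ Subgroup.center _ := by
    rw [H02.fittingOf_eq, H02.fitting_eq_iSup_pCore, Subgroup.map_iSup, iSup_le_iff]
    intro p
    haveI := h5 p p.2 _ (H02.pCore_isPGroup p _)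
    haveI := H02.pCoreOf_normal (p := p) g.range
    haveI : IsMulCommutative (pCoreOf p g.range) := Subgroup.map_isMulCommutative _ _
    exact (h4.le_charCenter (pCoreOf p g.range)).trans (H06.charCenter_eq_center h2).le
  have h7 : g.range ≤ Subgroup.center _ := (le_inf le_rfl ((Subgroup.le_centralizer_iff.1
    (h6.trans (Subgroup.center_le_centralizer _))))).trans ((H02.centralizer_fittingOf_inf_le _).trans h6)
  haveI : IsMulCommutative g.range := ⟨⟨fun a b => Subtype.ext (Subgroup.mem_center_iff.1 (h7 b.2) a)⟩⟩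
  have h8 := (H05.Cfsg.IsIrrCharacter.of_comp (h1.isCharacter.restrict g.range) g.rangeRestrict (by
    convert h using 2 with y; subst hg; exact (congrFun h3 (f y)).symm)).apply_one_of_comm
  rw [h3]; exact h8

theorem monomial_of_rel [Fintype G] [Group.IsSolvable G] (N : Subgroup G) [N.Normal] (hN : AbSyl N)
    (hχ : IsIrrCharacter G χ) (h : IsIrrCharacter N fun n => χ n) :
    ∃ (U : Subgroup G) (lam : U → ℂ), IsIrrCharacter U lam ∧ lam 1 = 1 ∧ indFun U lam = χ := by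
  classical
  obtain ⟨U, θ, h1, rfl⟩ := exists_induced_primitive hχ
  have h2 : U ⊔ N = ⊤ := by
    obtain ⟨η, a2, a1⟩ : ∃ η : (U ⊔ N : Subgroup G) → ℂ, IsCharacter _ η ∧ indFun (U ⊔ N) η = indFun U θ :=
      ⟨_, isCharacter_indFun _ (h1.1.isCharacter.comp (Subgroup.subgroupOfEquivOfLe
        (le_sup_left : U ≤ U ⊔ N)).toMonoidHom), indFun_trans U (U ⊔ N) le_sup_left θ⟩
    have a3 : IsIrrCharacter (U ⊔ N : Subgroup G) fun x => indFun U θ x := H05.Cfsg.IsIrrCharacter.of_comp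
      (hχ.isCharacter.restrict _) (Subgroup.inclusion le_sup_right) h
    rw [← a1] at hχ a3
    have a4 := a3.eq_of_classInner_ne_zero (isIrr_of_isIrr_indFun _ a2 hχ) ((inner_res_of_indFun hχ).trans_ne one_ne_zero)
    have a5 : indFun (U ⊔ N) η 1 = η 1 := congrFun a4 1
    rw [indFun_one, mul_eq_right₀ (isIrr_of_isIrr_indFun _ a2 hχ).apply_one_ne_zero, Nat.cast_eq_one] at a5
    exact Subgroup.index_eq_one.1 a5
  let f : U.subgroupOf N →* U := (N.subtype.comp (U.subgroupOf N).subtype).codRestrict U fun x => x.2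
  haveI : f.range.Normal := by
    rw [show f.range = N.subgroupOf U from Subgroup.ext fun x => ⟨by rintro ⟨y, rfl⟩; exact y.1.2,
      fun hx => ⟨⟨⟨x, hx⟩, x.2⟩, rfl⟩⟩]
    infer_instance
  refine ⟨U, θ, h1.1, prim_linear h1 (hN.of_injective _ (U.subgroupOf N).subtype_injective) f
    (isIrr_of_isIrr_indFun _ (h1.1.isCharacter.comp f) ?_), rfl⟩
  convert h using 1
  exact funext fun k => (mackey_of_sup_eq_top_normal_right U N h2 θ h1.1.isClassFunction k).symm

theorem sylow_sup_eq_top [Finite G] {p k : ℕ} [hp : Fact p.Prime] (P : Sylow p G) {N : Subgroup G}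
    (h : N.index ∣ p ^ k) : (P : Subgroup G) ⊔ N = ⊤ :=
  Subgroup.index_eq_one.1 (Nat.eq_one_of_dvd_coprimes (((hp.out.coprime_iff_not_dvd).2 P.not_dvd_index).pow_left k)
    ((Subgroup.index_dvd_of_le le_sup_right).trans h) (Subgroup.index_dvd_of_le le_sup_left))

theorem inner_ind_mul [Fintype G] (N : Subgroup G) [hN : N.Normal] [Fintype N] {θ : N → ℂ}
    (hinv : ∀ g, conjFun N g θ = θ) (E : Subgroup G) [Fintype (E ⊓ N : Subgroup G)] (ψ : E → ℂ) :
    classInner (fun n : N => indFun E ψ n * θ n) θ = (E ⊔ N).index *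
      classInner (fun x : (E ⊓ N : Subgroup G) => ψ ⟨x, x.2.1⟩ * θ ⟨x, x.2.2⟩) fun x => θ ⟨x, x.2.2⟩ := by
  classical
  have h1 := sum_indFun_mul E ψ (extendByZero N fun n => θ n * conj (θ n)) (fun x g => by
    by_cases hx : x ∈ N
    · rw [extendByZero_of_mem _ _ hx, extendByZero_of_mem _ _ (hN.conj_mem x hx g)]
      have := congrFun (hinv g) ⟨x, hx⟩
      rw [conjFun_apply] at this
      simp only [this]
    · rw [extendByZero_of_notMem _ _ hx, extendByZero_of_notMem _ _ fun h => hx (by simpa [mul_assoc] using hN.conj_mem' _ h g)])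
  rw [Finset.sum_congr rfl fun g _ => mul_comm _ _, sum_extendByZero_mul] at h1
  have h2 : ∑ e : E, ψ e * extendByZero N (fun n => θ n * conj (θ n)) e =
      ∑ x : (E ⊓ N : Subgroup G), ψ ⟨x, x.2.1⟩ * θ ⟨x, x.2.2⟩ * conj (θ ⟨x, x.2.2⟩) := by
    symm
    refine Finset.sum_of_injOn (fun x => ⟨x, x.2.1⟩) (fun x _ y _ e => Subtype.ext (congrArg (fun z : E => (z : G)) e))
      (fun _ _ => Finset.mem_univ _) (fun e _ he => ?_) fun x _ => ?_
    · rw [extendByZero_of_notMem _ _ fun h => he ⟨⟨e, e.2, h⟩, by simp⟩, mul_zero]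
    · rw [extendByZero_of_mem _ _ x.2.2, mul_assoc]
  have h3 : Nat.card G * Nat.card (E ⊓ N : Subgroup G) = (E ⊔ N).index * Nat.card N * Nat.card E := by
    rw [← (E ⊔ N).index_mul_card, ← card_mul_relIndex (le_sup_right : N ≤ E ⊔ N), Subgroup.relIndex_sup_right,
      ← card_mul_relIndex (inf_le_left : E ⊓ N ≤ E), Subgroup.inf_relIndex_left]; ring
  have h4 : (Nat.card G : ℂ) * Nat.card (E ⊓ N : Subgroup G) = (E ⊔ N).index * Nat.card N * Nat.card E := by
    exact_mod_cast h3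
  rw [h2] at h1
  simp only [classInner]
  rw [Finset.sum_congr rfl (g := fun n : N => θ n * conj (θ n) * indFun E ψ n) fun n _ => by ring]
  have := natCard_ne_zero G; have := natCard_ne_zero N; have := natCard_ne_zero E
  have := natCard_ne_zero (E ⊓ N : Subgroup G)
  field_simp at h1 ⊢
  refine mul_left_cancel₀ (natCard_ne_zero E) ?_
  linear_combination (Nat.card (E ⊓ N : Subgroup G) : ℂ) * h1 + (∑ x : (E ⊓ N : Subgroup G),
    ψ ⟨x, x.2.1⟩ * θ ⟨x, x.2.2⟩ * conj (θ ⟨x, x.2.2⟩)) * h4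

theorem dade_elementary [Fintype G] {p k : ℕ} [hp : Fact p.Prime] (N : Subgroup G) [hN : N.Normal]
    (hk : N.index = p ^ k) {θ : N → ℂ} (hθ : IsIrrCharacter N θ) (hinv : ∀ g, conjFun N g θ = θ) :
    ∃ (E : Subgroup G) (φ : (E ⊓ N : Subgroup G) → ℂ), IsElementary p E ∧ E ⊔ N = ⊤ ∧ φ ∈ IrrInv E (E ⊓ N) ∧
      ¬ p ∣ mult (Subgroup.inclusion inf_le_right) θ φ := by
  classical
  obtain ⟨m, hm, h⟩ := brauer_local (G := G) hp.out
  obtain ⟨E, ψ, hE, hψ, h1⟩ : ∃ (E : Subgroup G) (ψ : E → ℂ), IsElementary p E ∧ IsCharacter E ψ ∧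
      ¬ ∃ z : ℤ, classInner (fun n : N => indFun E ψ n * θ n) θ = p * z := by
    by_contra hh
    push Not at hh
    have : ∀ f ∈ elemInd p G, ∃ z : ℤ, classInner (fun n : N => f n * θ n) θ = p * z := by
      intro f hf
      induction hf using AddSubgroup.closure_induction with
      | mem f hf =>
        obtain ⟨t, ht, rfl⟩ := hf
        exact hh t.1 t.2 ht.1 ht.2
      | zero => exact ⟨0, by simp [classInner]⟩
      | add f g _ _ ha hb =>
        obtain ⟨a, ha⟩ := ha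
        obtain ⟨b, hb⟩ := hb
        exact ⟨a + b, by push_cast; rw [mul_add, ← ha, ← hb, ← H05.classInner_add_left]; congr 1; ext; simp [add_mul]⟩
      | neg f _ ha =>
        obtain ⟨a, ha⟩ := ha
        exact ⟨-a, by push_cast; rw [mul_neg, ← ha, ← H05.classInner_neg_left]; congr 1; ext; simp⟩
    obtain ⟨z, hz⟩ := this _ h
    rw [show (fun n : N => (fun _ : G => (m : ℂ)) n * θ n) = (m : ℂ) • θ from rfl, H05.classInner_smul_left,
      hθ.classInner_self, mul_one] at hz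
    exact hm ⟨z, by exact_mod_cast hz⟩
  let i : (E ⊓ N : Subgroup G) →* N := Subgroup.inclusion inf_le_right
  let j : (E ⊓ N : Subgroup G) →* E := Subgroup.inclusion inf_le_left
  let f : ((E ⊓ N : Subgroup G) → ℂ) → ℕ := fun η =>
    mult i θ η * mult (MonoidHom.id _) (fun x => ψ (j x) * η x) fun x => θ (i x)
  have h2 : classInner (fun x => ψ (j x) * θ (i x)) (fun x => θ (i x)) = (∑ η : IrrCharacter _, f η.1 : ℕ) := by
    have a1 : (fun x => ψ (j x) * θ (i x)) = ∑ η : IrrCharacter _, (mult i θ η.1 : ℂ) • fun x => ψ (j x) * η.1 x := by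
      ext x
      rw [congrFun (comp_eq_sum_mult i hθ.isCharacter) x]
      simp [Finset.mul_sum, mul_left_comm]
    rw [a1, H05.classInner_sum_left, Nat.cast_sum]
    refine Finset.sum_congr rfl fun η _ => ?_
    rw [H05.classInner_smul_left, Nat.cast_mul]
    exact congrArg _ (mult_eq (MonoidHom.id _) ((hψ.comp j).mul η.2.isCharacter) (hθ.isCharacter.comp i)).symm
  rw [(inner_ind_mul N hinv E ψ).trans (congrArg _ h2)] at h1
  have h3 : ¬ p ∣ (E ⊔ N).index * ∑ η : IrrCharacter _, f η.1 := by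
    rintro ⟨z, hz⟩
    exact h1 ⟨z, by exact_mod_cast hz⟩
  obtain ⟨a, -, ha⟩ := (Nat.dvd_prime_pow hp.out).1 (hk ▸ Subgroup.index_dvd_of_le (le_sup_right : N ≤ E ⊔ N))
  have h4 : E ⊔ N = ⊤ := Subgroup.index_eq_one.1 (by
    rcases a with _ | a
    · simpa using ha
    · exact (h3 (Dvd.dvd.mul_right (ha ▸ dvd_pow_self p a.succ_ne_zero) _)).elim)
  obtain ⟨P⟩ : Nonempty (Sylow p E) := inferInstance
  have hEn : E ≤ Subgroup.normalizer ((E ⊓ N : Subgroup G) : Set G) :=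
    le_normalizer_inf Subgroup.le_normalizer Subgroup.le_normalizer_of_normal
  have h5 := mt (dvd_sum_irr (P.2.map E.subtype) ((Subgroup.map_subtype_le _).trans hEn) f (fun t ht η _ => by
    have a0 := Subgroup.map_subtype_le _ ht
    have a1 : ∀ x, θ (i (cjA (hEn a0) x)) = θ (i x) := fun x => congrFun (hinv t) (i x)
    exact congrArg₂ (· * ·) (mult_congr (cjA (hEn a0)).toEquiv (fun x => (a1 x).symm) fun _ => rfl)
      (mult_congr (cjA (hEn a0)).toEquiv (fun x => congrArg (· * _) (hψ.isClassFunction (j x) ⟨t, a0⟩).symm)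
        fun x => (a1 x).symm))) fun h => h3 (h.mul_left _)
  push Not at h5
  obtain ⟨φ, ⟨h6, h7⟩, h8⟩ := h5
  refine ⟨E, φ, hE, h4, ⟨h6, fun e he => ?_⟩, fun h => h8 (h.mul_right _)⟩
  have h9 := sylow_sup_eq_top P (N := N.subgroupOf E) (hk ▸ Subgroup.relIndex_dvd_index_of_normal N E)
  obtain ⟨x, hx, y, hy, e'⟩ := Subgroup.mem_sup_of_normal_right.1 (h9 ▸ Subgroup.mem_top (⟨e, he⟩ : E))
  rw [show e = x * y from (congrArg Subtype.val e').symm]
  exact Subgroup.mul_mem _ (h7 ⟨x, hx, rfl⟩) (le_stab_self h6.isClassFunction ⟨y.2, hy⟩)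

theorem ext_of_dade [Fintype G] {p k : ℕ} [hp : Fact p.Prime] (N : Subgroup G) [hN : N.Normal]
    (hk : N.index = p ^ k) (P : Sylow p G) (hP : ⁅(P : Subgroup G), (P : Subgroup G)⁆ ⊓ N = ⊥) {θ : N → ℂ}
    (hθ : IsIrrCharacter N θ) (hinv : ∀ g, conjFun N g θ = θ) : ∃ χ, IsIrrCharacter G χ ∧ ∀ n : N, χ n = θ n := by
  classical
  obtain ⟨E, φ, hE, h1, h2, h3⟩ := dade_elementary N hk hθ hinv
  have h4 : ∀ x : E, x ∈ commutator E → (x : G) ∈ N → x = 1 := fun x hx hxN => by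
    obtain ⟨c, hc, -, a, ha⟩ := hE
    obtain ⟨Q⟩ : Nonempty (Sylow p E) := inferInstance
    have a1 := sylow_sup_eq_top Q (N := Subgroup.zpowers c) ha.dvd
    obtain ⟨S, hS⟩ := (Q.2.map E.subtype).exists_le_sylow
    obtain ⟨g, rfl⟩ := MulAction.exists_smul_eq G P S
    have a2 : commutator E ≤ ⁅(Q : Subgroup E), (Q : Subgroup E)⁆ := by
      haveI := H04.normal_of_le_center (Subgroup.zpowers_le.2 hc)
      rw [commutator_def, Subgroup.commutator_le]
      intro a _ b _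
      obtain ⟨a, ha, z, hz, rfl⟩ := Subgroup.mem_sup_of_normal_right.1 (a1 ▸ Subgroup.mem_top a)
      obtain ⟨b, hb, w, hw, rfl⟩ := Subgroup.mem_sup_of_normal_right.1 (a1 ▸ Subgroup.mem_top b)
      rw [comm_mul_center (Subgroup.zpowers_le.2 hc hz) (Subgroup.zpowers_le.2 hc hw)]
      exact Subgroup.commutator_mem_commutator ha hb
    have a3 : (x : G) ∈ MulAut.conj g • ⁅(P : Subgroup G), (P : Subgroup G)⁆ := by
      rw [conj_smul_commutator]
      exact Subgroup.commutator_mono hS hS (Subgroup.map_commutator _ _ E.subtype ▸ Subgroup.mem_map_of_mem _ (a2 hx))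
    obtain ⟨y, hy, e⟩ := a3
    have a4 : y ∈ N := by simpa [← e, mul_assoc] using hN.conj_mem' _ hxN g
    have a5 : y = 1 := Subgroup.mem_bot.1 (hP ▸ Subgroup.mem_inf.2 ⟨hy, a4⟩)
    exact Subtype.ext (by rw [← e, a5]; simp)
  haveI : IsMulCommutative (E ⊓ N : Subgroup G) := ⟨⟨fun a b => Subtype.ext (commutatorElement_eq_one_iff_mul_comm.1
    (congrArg Subtype.val (h4 ⁅⟨a, a.2.1⟩, ⟨b, b.2.1⟩⁆ (Subgroup.commutator_mem_commutator (Subgroup.mem_top _)
      (Subgroup.mem_top _)) (Subgroup.commutator_le_left N N (Subgroup.commutator_mem_commutator a.2.2 b.2.2)))))⟩⟩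
  obtain ⟨lam, rfl⟩ := h2.1.isCharacter.exists_monoidHom h2.1.apply_one_of_comm
  let j : N.subgroupOf E →* (E ⊓ N : Subgroup G) :=
    (E.subtype.comp (N.subgroupOf E).subtype).codRestrict _ fun x => ⟨x.1.2, x.2⟩
  obtain ⟨μ, hμ⟩ := exists_ext_hom_of_commutator (N.subgroupOf E) (lam.comp j) fun n hn => by
    rw [show n = 1 from Subtype.ext (h4 n hn n.2), map_one]
  have h5 := isCharacter_indFun_monoidHom E μ
  have h6 : mult N.subtype (indFun E fun x => (μ x : ℂ)) θ =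
      mult (Subgroup.inclusion (inf_le_right : E ⊓ N ≤ N)) θ fun x => lam x := by
    refine mult_of_eq ?_
    rw [show (fun c => indFun E (fun x => (μ x : ℂ)) (N.subtype c)) = _ from funext fun k =>
      mackey_of_sup_eq_top_normal_right E N h1 _ (isCharacter_monoidHom μ).isClassFunction k,
      frobenius_reciprocity _ _ _ hθ.isClassFunction]
    have a1 := (isCharacter_monoidHom μ).comp ((N.subtype.comp (E.subgroupOf N).subtype).codRestrict E fun x => x.2)
    refine (a1.classInner_comm (hθ.isCharacter.restrict _)).trans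
      ((mult_eq (E.subgroupOf N).subtype hθ.isCharacter a1).symm.trans ?_)
    let b : E.subgroupOf N ≃ (E ⊓ N : Subgroup G) :=
      ⟨fun x => ⟨x.1, x.2, x.1.2⟩, fun x => ⟨⟨x, x.2.2⟩, x.2.1⟩, fun _ => rfl, fun _ => rfl⟩
    exact congrArg _ (mult_congr b (fun _ => rfl) fun x => congrArg Units.val (hμ ⟨⟨x.1, x.2⟩, x.1.2⟩))
  rw [← h6, mult_comp' (MonoidHom.id G) N.subtype h5 hθ.isCharacter] at h3
  obtain ⟨χ, hχ⟩ : ∃ χ : IrrCharacter G, ¬ p ∣ mult N.subtype χ.1 θ := by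
    by_contra hh
    push Not at hh
    exact h3 (Finset.dvd_sum fun χ _ => (hh χ).mul_left _)
  obtain ⟨e, h7, h8, h9⟩ := exists_res_eq_smul_dvd N χ.2 hθ ((mult_sub_ne_zero N χ.2.isCharacter hθ.isCharacter).1
    fun h => hχ (h ▸ dvd_zero p)) hinv
  rw [mult_of_eq (ι := N.subtype) h8] at hχ
  obtain rfl : e = 1 := Nat.eq_one_of_dvd_coprimes ((hp.out.coprime_iff_not_dvd.2 hχ).pow_left k) (hk ▸ h7) dvd_rfl
  exact ⟨χ.1, χ.2, fun n => by simpa using congrFun h9 n⟩

end H07
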