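import Cfsg.Agent.H24.PSolv2
import Cfsg.Agent.H01.SZ
import Cfsg.Agent.H17.OpMod
import Cfsg.Agent.H04.Critical

/-!
Groups whose elements of order `p` lie in every characteristic subgroup of order divisible by `p`
(Gaschütz–Yen): `GY.CharAll`, `GY.frattini_compl`, `GY.dichotomy`, `GY.plen_odd`.
-/

set_option autoImplicit false
open Cfsg Subgroup
open scoped commutatorElement Pointwise

namespace H07
namespace GY

variable {G : Type*} [Group G] {p : ℕ}

/-- every characteristic subgroup of order divisible by `p` contains all elements of order `p` -/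
def CharAll (p : ℕ) (G : Type*) [Group G] : Prop :=
  ∀ C : Subgroup G, C.Characteristic → p ∣ Nat.card C → ∀ x : G, x ^ p = 1 → x ∈ C

theorem char_inf (A B : Subgroup G) [hA : A.Characteristic] [hB : B.Characteristic] :
    (A ⊓ B).Characteristic :=
  ⟨fun φ => by rw [Subgroup.comap_inf, hA.fixed φ, hB.fixed φ]⟩

theorem charAll_of_trans [Finite G] [hp : Fact p.Prime]
    (htrans : ∀ U V : Subgroup G, Nat.card U = p → Nat.card V = p →
      ∃ a : MulAut G, U.map a.toMonoidHom = V) : CharAll p G := by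
  intro C hC hd x hx
  by_cases h1 : x = 1
  · rw [h1]; exact C.one_mem
  obtain ⟨y, hy⟩ := exists_prime_orderOf_dvd_card' (G := C) p hd
  have hy' : orderOf (y : G) = p := by rw [Subgroup.orderOf_coe, hy]
  have hxo : orderOf x = p := orderOf_eq_prime hx h1
  obtain ⟨a, ha⟩ := htrans (zpowers (y : G)) (zpowers x) (by rw [Nat.card_zpowers, hy'])
    (by rw [Nat.card_zpowers, hxo])
  have h2 : x ∈ (zpowers (y : G)).map a.toMonoidHom := ha ▸ mem_zpowers x
  have h3 : (zpowers (y : G)).map a.toMonoidHom ≤ C.map a.toMonoidHom :=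
    Subgroup.map_mono ((zpowers_le).2 y.2)
  exact (characteristic_iff_map_le.1 hC a) (h3 h2)

theorem exists_lift [Finite G] [hp : Fact p.Prime] (N : Subgroup G) [N.Normal]
    (hN : (Nat.card N).Coprime p) (y : G ⧸ N) (hy : y ^ p = 1) :
    ∃ x : G, x ^ p = 1 ∧ (x : G ⧸ N) = y := by
  obtain ⟨x, rfl⟩ := QuotientGroup.mk_surjective y
  have h1 : x ^ p ∈ N := by rwa [← QuotientGroup.eq_one_iff, QuotientGroup.mk_pow]
  obtain ⟨k, hk⟩ := Nat.exists_mul_mod_eq_one_of_coprime hN hp.out.one_lt
  refine ⟨x ^ (Nat.card N * k), ?_, ?_⟩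
  · rw [← pow_mul, mul_comm, pow_mul, pow_mul]
    have : (x ^ p) ^ Nat.card N = 1 := by
      have := pow_card_eq_one' (G := N) (x := ⟨_, h1⟩)
      exact congrArg Subtype.val this
    rw [this, one_pow]
  · rw [QuotientGroup.mk_pow, ← Nat.div_add_mod (Nat.card N * k) p, hk.2, pow_add, pow_mul, hy,
      one_pow, one_mul, pow_one]

theorem CharAll.quot [Finite G] [hp : Fact p.Prime] (h : CharAll p G) (N : Subgroup G)
    [N.Characteristic] (hN : (Nat.card N).Coprime p) : CharAll p (G ⧸ N) := by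
  intro C hC hd y hy
  obtain ⟨x, hx, rfl⟩ := exists_lift N hN y hy
  have h1 : (C.comap (QuotientGroup.mk' N)).Characteristic := Subgroup.Characteristic.comap_quotient_mk hC
  refine h _ h1 (hd.trans ?_) x hx
  have := Subgroup.card_map_dvd (C.comap (QuotientGroup.mk' N)) (QuotientGroup.mk' N)
  rwa [Subgroup.map_comap_eq_self_of_surjective (QuotientGroup.mk'_surjective N)] at this

/-- Frattini argument for complements of a normal solvable Hall subgroup of a normal subgroup -/
theorem frattini_compl [Finite G] {E K : Subgroup G} [E.Normal] [hK : K.Normal] (hEK : E ≤ K)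
    (hcop : (Nat.card E).Coprime (E.relIndex K)) (hs : Group.IsSolvable E) :
    ∃ L : Subgroup G, L ≤ K ∧ Nat.card L = E.relIndex K ∧ E ⊓ L = ⊥ ∧
      (∀ k ∈ K, ∃ e ∈ E, ∃ l ∈ L, k = e * l) ∧
      ∀ g : G, ∃ e ∈ E, e * g ∈ normalizer (L : Set G) := by
  have hc : Nat.card (E.subgroupOf K) = Nat.card E := H01.card_subgroupOf_of_le hEK
  obtain ⟨L, hL⟩ := Subgroup.exists_right_complement'_of_coprime (N := E.subgroupOf K)
    (by rw [hc]; exact hcop)
  have hcL : Nat.card (L.map K.subtype) = E.relIndex K := by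
    rw [Subgroup.card_map_of_injective K.subtype_injective, ← hL.symm.index_eq_card]; rfl
  refine ⟨L.map K.subtype, map_subtype_le _, hcL, ?_, ?_, ?_⟩
  · rw [eq_bot_iff]
    rintro _ ⟨h1, ⟨l, hl, rfl⟩⟩
    have : l ∈ E.subgroupOf K ⊓ L := ⟨h1, hl⟩
    rw [hL.disjoint.eq_bot, mem_bot] at this
    rw [this]; exact one_mem _
  · intro k hk
    obtain ⟨⟨⟨e, he⟩, ⟨l, hl⟩⟩, h⟩ := hL.2 ⟨k, hk⟩
    exact ⟨e, he, l, ⟨l, hl, rfl⟩, (congrArg Subtype.val h).symm⟩
  · intro g
    set U : Subgroup G := MulAut.conj g • (L.map K.subtype) with hU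
    have hUK : U ≤ K := by
      rintro _ ⟨_, ⟨l, -, rfl⟩, rfl⟩
      exact hK.conj_mem _ l.2 g
    have hcU : Nat.card U = E.relIndex K := by rw [hU, H01.card_conj_smul, hcL]
    have hs' : Group.IsSolvable (E.subgroupOf K) :=
      Group.isSolvable_of_surjective (f := (subgroupOfEquivOfLe hEK).symm.toMonoidHom)
        (subgroupOfEquivOfLe hEK).symm.surjective
    obtain ⟨e, he, h⟩ := H01.sz_conj_le (U := U.subgroupOf K) hL
      (by rw [hc, H01.card_subgroupOf_of_le hUK, hcU]; exact hcop) (Or.inl hs')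
    refine ⟨e, he, ?_⟩
    have h1 : MulAut.conj ((e : G) * g) • (L.map K.subtype) ≤ L.map K.subtype := by
      rintro _ ⟨x, hx, rfl⟩
      have hx' : g * x * g⁻¹ ∈ U := ⟨x, hx, rfl⟩
      have := h (show e * ⟨_, hUK hx'⟩ * e⁻¹ ∈ MulAut.conj e • U.subgroupOf K from
        ⟨⟨_, hUK hx'⟩, hx', rfl⟩)
      refine ⟨_, this, ?_⟩
      simp [mul_assoc]
    have h2 := Subgroup.eq_of_le_of_card_ge h1 (H01.card_conj_smul _ _).ge
    exact H01.conj_smul_eq_iff_mem_normalizer.1 h2

/-- `O_{p,p'}(G)` -/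
noncomputable def opp (p : ℕ) (G : Type*) [Group G] : Subgroup G :=
  (pPrimeCore p (G ⧸ pCore p G)).comap (QuotientGroup.mk' (pCore p G))

instance opp_char (p : ℕ) (G : Type*) [Group G] : (opp p G).Characteristic :=
  Subgroup.Characteristic.comap_quotient_mk inferInstance

theorem pCore_le_opp : pCore p G ≤ opp p G := fun x hx => by
  have : (QuotientGroup.mk' (pCore p G)) x = 1 := (QuotientGroup.eq_one_iff x).2 hx
  rw [opp, mem_comap, this]; exact one_mem _

theorem relIndex_opp : (pCore p G).relIndex (opp p G) = Nat.card (pPrimeCore p (G ⧸ pCore p G)) := by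
  rw [H24.relIndex_eq_card_map, opp,
    Subgroup.map_comap_eq_self_of_surjective (QuotientGroup.mk'_surjective _)]

theorem eq_top_of_opp_le [Finite G] [Fact p.Prime] (h : IsPSolvable p G) (hle : opp p G ≤ pCore p G) :
    pCore p G = ⊤ := by
  by_contra hne
  haveI : Nontrivial (G ⧸ pCore p G) := QuotientGroup.nontrivial_iff.2 hne
  rcases H24.PS.core_ne_bot (H24.PS.quotient h (pCore p G)) with h1 | h1
  · exact h1 (H02.pCore_quotient_pCore p G)
  · apply h1
    have := relIndex_opp (p := p) (G := G)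
    rw [relIndex_eq_one.2 hle] at this
    exact Subgroup.card_eq_one.1 this.symm

theorem mem_center_pCore [Finite G] [hp : Fact p.Prime] (hE : pCore p G ≠ ⊥) (h : CharAll p G) {x : G}
    (hx : x ^ p = 1) : x ∈ pCore p G ⊓ centralizer (pCore p G : Set G) := by
  refine h _ (char_inf _ _) ?_ x hx
  haveI := (nontrivial_iff_ne_bot _).2 hE
  have h1 := (H02.pCore_isPGroup p G).center_nontrivial
  obtain ⟨⟨z, hz⟩, hz1⟩ := exists_ne (1 : center (pCore p G))
  have hz2 : (z : G) ∈ pCore p G ⊓ centralizer (pCore p G : Set G) :=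
    ⟨z.2, fun g hg => congrArg Subtype.val (mem_center_iff.1 hz ⟨g, hg⟩)⟩
  have h3 : pCore p G ⊓ centralizer (pCore p G : Set G) ≠ ⊥ := by
    intro e
    rw [e, mem_bot] at hz2
    exact hz1 (Subtype.ext (Subtype.ext hz2))
  obtain ⟨k, hk⟩ := IsPGroup.iff_card.1
    ((H02.pCore_isPGroup p G).to_inf_left (K := centralizer (pCore p G : Set G)))
  rcases k with _ | k
  · exact absurd (Subgroup.card_eq_one.1 hk) h3
  · rw [hk]; exact dvd_pow_self p k.succ_ne_zero

/-- either `O_p(G)` is a Sylow subgroup, or `O_{p,p'}(G)` centralizes all elements of order `p` -/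
theorem dichotomy [Finite G] [hp : Fact p.Prime] (hE : pCore p G ≠ ⊥) (h : CharAll p G) :
    ¬ p ∣ (pCore p G).index ∨ ∀ x : G, x ^ p = 1 → x ∈ centralizer (opp p G : Set G) := by
  by_cases hd : p ∣ Nat.card (centralizer (opp p G : Set G))
  · exact Or.inr fun x hx => h _ inferInstance hd x hx
  left
  intro hi
  apply hd
  obtain ⟨k, hk⟩ := H02.exists_card_pCore (p := p) (G := G)
  have hcop : (Nat.card (pCore p G)).Coprime ((pCore p G).relIndex (opp p G)) := by
    rw [hk, relIndex_opp]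
    exact Nat.Coprime.pow_left _ (H02.pPrimeCore_coprime p _).symm
  haveI := (H02.pCore_isPGroup p G).isNilpotent
  obtain ⟨L, hLK, -, hdis, hmul, hN⟩ := frattini_compl pCore_le_opp hcop inferInstance
  have h1 : (normalizer (L : Set G)).map (QuotientGroup.mk' (pCore p G)) = ⊤ := by
    rw [eq_top_iff]
    intro y _
    obtain ⟨g, rfl⟩ := QuotientGroup.mk_surjective y
    obtain ⟨e, he, hg⟩ := hN g
    refine ⟨e * g, hg, ?_⟩
    have : (e : G ⧸ pCore p G) = 1 := (QuotientGroup.eq_one_iff e).2 he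
    simp [this]
  have h2 : p ∣ Nat.card (normalizer (L : Set G)) := by
    refine hi.trans ?_
    have := Subgroup.card_map_dvd (normalizer (L : Set G)) (QuotientGroup.mk' (pCore p G))
    rwa [h1, Subgroup.card_top] at this
  obtain ⟨y, hy⟩ := exists_prime_orderOf_dvd_card' (G := normalizer (L : Set G)) p h2
  have hy' : orderOf (y : G) = p := by rw [Subgroup.orderOf_coe, hy]
  have hyp : (y : G) ^ p = 1 := by rw [← hy']; exact pow_orderOf_eq_one _
  have hz := mem_center_pCore hE h hyp
  have hc : (y : G) ∈ centralizer (opp p G : Set G) := by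
    intro k hk
    obtain ⟨e, he, l, hl, rfl⟩ := hmul k hk
    have h3 : l⁻¹ * (y * l * (y : G)⁻¹) ∈ pCore p G ⊓ L := by
      refine ⟨?_, L.mul_mem (L.inv_mem hl) ((mem_normalizer_iff.1 y.2 l).1 hl)⟩
      have := (pCore p G).mul_mem ((inferInstance : (pCore p G).Normal).conj_mem _ hz.1 l⁻¹)
        ((pCore p G).inv_mem hz.1)
      simpa [mul_assoc] using this
    rw [hdis, mem_bot] at h3
    have h4 : (y : G) * l = l * y := by
      calc (y : G) * l = l * (l⁻¹ * (y * l * (y : G)⁻¹)) * y := by group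
        _ = l * y := by rw [h3, mul_one]
    have h5 : e * y = y * e := hz.2 e he
    rw [mul_assoc, ← h4, ← mul_assoc, h5, mul_assoc]
  exact hy'.symm.dvd.trans (Subgroup.orderOf_dvd_natCard _ hc)

theorem pCore_ne_bot [Finite G] [Fact p.Prime] (hG : IsPSolvable p G) (hO : pPrimeCore p G = ⊥)
    [Nontrivial G] : pCore p G ≠ ⊥ :=
  (H24.PS.core_ne_bot hG).resolve_right (fun h => h hO)

theorem index_odd [Finite G] [hp : Fact p.Prime] (h2 : p ≠ 2) (hG : IsPSolvable p G)
    (hO : pPrimeCore p G = ⊥) (h : CharAll p G) : ¬ p ∣ (pCore p G).index := by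
  rcases subsingleton_or_nontrivial G with h0 | h0
  · rw [Subsingleton.elim (pCore p G) ⊤, index_top]; exact hp.out.not_dvd_one
  rcases dichotomy (pCore_ne_bot hG hO) h with h1 | h1
  · exact h1
  have hle : opp p G ≤ pCore p G := by
    apply H02.le_pCore
    rw [IsPGroup.iff_card]
    refine ⟨_, Nat.eq_prime_pow_of_unique_prime_dvd Nat.card_pos.ne' fun {q} hq hd => ?_⟩
    by_contra hne
    haveI := Fact.mk hq
    obtain ⟨y, hy⟩ := exists_prime_orderOf_dvd_card' (G := opp p G) q hd
    have hy' : orderOf (y : G) = q := by rw [Subgroup.orderOf_coe, hy]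
    have hc : (orderOf (y : G)).Coprime p := by
      rw [hy']; exact (Nat.coprime_primes hq hp.out).2 hne
    have h3 : (y : G) ∈ centralizer (omegaOne p (pCore p G) : Set G) := by
      have : omegaOne p (pCore p G) ≤ centralizer ({(y : G)} : Set G) := by
        rw [omegaOne, closure_le]
        rintro x ⟨-, hx⟩ _ rfl
        exact h1 x hx y y.2
      intro x hx
      exact (this hx y rfl).symm
    have h4 := H17.mem_centralizer_of_omegaOne h2 (H02.pCore_isPGroup p G)
      (by rw [normalizer_eq_top]; trivial) hc h3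
    have h5 := H24.PS.centralizer_pCore_le hG hO h4
    obtain ⟨k, hk⟩ := H02.exists_card_pCore (p := p) (G := G)
    have h6 := Subgroup.orderOf_dvd_natCard _ h5
    rw [hk, hy'] at h6
    exact hne ((Nat.prime_dvd_prime_iff_eq hq hp.out).1 (hq.dvd_of_dvd_pow h6))
  rw [eq_top_of_opp_le hG hle, index_top]
  exact hp.out.not_dvd_one

theorem plen_of_quot [Finite G] [hp : Fact p.Prime]
    (h : ¬ p ∣ (pCore p (G ⧸ pPrimeCore p G)).index) : PLengthLE p 1 G := by
  rw [H24.PS.plen_one_iff, pPrimePCore,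
    Subgroup.index_comap_of_surjective _ (QuotientGroup.mk'_surjective _)]
  exact ((Nat.Prime.coprime_iff_not_dvd hp.out).2 h).symm

theorem plen_odd [Finite G] [hp : Fact p.Prime] (h2 : p ≠ 2) (hG : IsPSolvable p G)
    (h : CharAll p G) : PLengthLE p 1 G :=
  plen_of_quot (index_odd h2 (H24.PS.quotient hG _) (H02.pPrimeCore_quotient_pPrimeCore p G)
    (h.quot _ (H02.pPrimeCore_coprime p G)))

end GY
end H07
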