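import Mathlib
import Cfsg.Agent.H04.Basic
import Cfsg.Agent.H06.Monomial
import Cfsg.Agent.H07.Glb6
import Cfsg.Agent.H07.GY

/-!
Orders of linear `p`-groups in terms of degree and field of values (namespace H07).
-/

namespace H07

open Cfsg H05 H06 MulAction Subgroup
open scoped ComplexConjugate

variable {G : Type*} [Group G] {χ : G → ℂ}

/-- the number of Galois conjugates -/
noncomputable abbrev gd {X : Type*} [MulAction (RingAut ℂ) X] (x : X) : ℕ := (stabilizer (RingAut ℂ) x).index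

theorem gal_smul (σ : RingAut ℂ) (χ : G → ℂ) : σ • χ = fun g => σ (χ g) := rfl

theorem gd_root {ζ : ℂ} {n : ℕ} (hn : n ≠ 0) (h : IsPrimitiveRoot ζ n) : gd ζ = n.totient := by
  have := NeZero.mk hn
  rw [gd, index_stabilizer, ← h.card_primitiveRoots, ← Set.ncard_coe_finset]
  congr 1
  ext ξ
  rw [Finset.mem_coe, mem_primitiveRoots (Nat.pos_of_ne_zero hn)]
  constructor
  · rintro ⟨σ, rfl⟩
    exact h.map_of_injective (f := σ) σ.injective
  · intro h1
    obtain ⟨i, -, h2, rfl⟩ := h.isPrimitiveRoot_iff.1 h1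
    obtain ⟨σ, hσ⟩ := exists_ringEquiv_pow hn h2
    exact ⟨σ, hσ ζ h.pow_eq_one⟩

theorem gd_dvd [Finite G] (hχ : IsCharacter G χ) : gd χ ∣ (Nat.card G).totient := by
  have h := Complex.isPrimitiveRoot_exp _ (Nat.card_pos (α := G)).ne'
  rw [← gd_root Nat.card_pos.ne' h]
  refine index_dvd_of_le fun σ hσ => funext fun g => ?_
  refine (hχ.isGeneralizedCharacter.galois_apply_eq_pow (σ : ℂ →+* ℂ) g 1 fun ω hω => ?_).trans
    (by rw [pow_one])
  have := NeZero.mk (Nat.card_pos (α := G)).ne'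
  obtain ⟨i, -, rfl⟩ := h.eq_pow_of_pow_eq_one (ξ := ω) (by
    obtain ⟨c, hc⟩ := orderOf_dvd_natCard g
    rw [hc, pow_mul, hω, one_pow])
  rw [map_pow, pow_one]
  exact congrArg (· ^ i) hσ

theorem gd_ne_zero [Finite G] (hχ : IsCharacter G χ) : gd χ ≠ 0 :=
  ne_zero_of_dvd_ne_zero (Nat.totient_pos.2 Nat.card_pos).ne' (gd_dvd hχ)

theorem gd_le_finrank [Finite G] (hχ : IsCharacter G χ) :
    gd χ ≤ Module.finrank ℚ (IntermediateField.adjoin ℚ (Set.range χ)) := by
  have : Finite (Set.range χ) := (Set.finite_range χ).to_subtype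
  have : FiniteDimensional ℚ (IntermediateField.adjoin ℚ (Set.range χ)) :=
    IntermediateField.finiteDimensional_adjoin fun _ ⟨g, hg⟩ =>
      hg ▸ (hχ.isIntegral g).tower_top
  rw [← AlgHom.natCard_of_splits _ _ ℂ fun _ => IsAlgClosed.splits _, gd, index_stabilizer]
  refine (Set.ncard_le_ncard (t := Set.range fun φ : IntermediateField.adjoin ℚ (Set.range χ) →ₐ[ℚ] ℂ =>
    fun g => φ ⟨χ g, IntermediateField.subset_adjoin _ _ ⟨g, rfl⟩⟩) ?_ (Set.finite_range _)).trans ?_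
  · rintro _ ⟨σ, rfl⟩
    exact ⟨(σ : ℂ →+* ℂ).toRatAlgHom.comp (IntermediateField.val _), rfl⟩
  · rw [← Set.image_univ, ← Set.ncard_univ]
    exact Set.ncard_image_le Set.finite_univ

theorem totient_dvd_gd [Finite G] (hχ : IsIrrCharacter G χ) {z : G} (hz : z ∈ charCenter χ) :
    (orderOf (z : G ⧸ charKer χ)).totient ∣ gd χ := by
  have h1 : ∀ k : ℕ, χ (z ^ k) = (χ z / χ 1) ^ k * χ 1 := fun k => by
    induction k with
    | zero => simp
    | succ k ih => rw [pow_succ', hχ.apply_mul_of_mem_charCenter hz, ih, pow_succ', mul_assoc]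
  have h2 : ∀ k : ℕ, (χ z / χ 1) ^ k = 1 ↔ (z : G ⧸ charKer χ) ^ k = 1 := fun k => by
    rw [← QuotientGroup.mk_pow, QuotientGroup.eq_one_iff, hχ.isCharacter.mem_charKer, h1,
      mul_eq_right₀ hχ.apply_one_ne_zero]
  rw [← gd_root (orderOf_pos _).ne' (ζ := χ z / χ 1) ⟨(h2 _).2 (pow_orderOf_eq_one _),
    fun l hl => orderOf_dvd_of_pow_eq_one ((h2 l).1 hl)⟩]
  refine index_dvd_of_le fun σ hσ => ?_
  change σ _ = _
  rw [map_div₀, show σ (χ z) = χ z from congrFun hσ z, show σ (χ 1) = χ 1 from congrFun hσ 1]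

variable {p : ℕ} [hp : Fact p.Prime]

theorem gd_eq [Finite G] (hG : IsPGroup p G) (hχ : IsIrrCharacter G χ) (h : charKer χ ≠ ⊤) :
    ∃ t, gd χ = (p - 1) * p ^ t := by
  have : Nontrivial (G ⧸ charKer χ) := QuotientGroup.nontrivial_iff.2 h
  have := (hG.to_quotient (charKer χ)).center_nontrivial
  obtain ⟨⟨z, hz⟩, h1⟩ := exists_prime_orderOf_dvd_card' (G := center (G ⧸ charKer χ)) p
    (((hG.to_quotient _).to_subgroup _).nontrivial_iff_card.1 this |>.elim fun n h =>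
      h.2 ▸ dvd_pow_self p h.1.ne')
  obtain ⟨z, rfl⟩ := QuotientGroup.mk_surjective z
  have h2 := totient_dvd_gd hχ (z := z) hz
  rw [← orderOf_mk _ hz, h1, Nat.totient_prime hp.out] at h2
  obtain ⟨d, hd⟩ := h2
  obtain ⟨n, hn⟩ := hG.exists_card_eq
  have h3 := gd_dvd hχ.isCharacter
  have h4 : (p ^ n).totient ∣ (p - 1) * p ^ n := by
    rcases n with _ | n
    · simp
    · rw [Nat.totient_prime_pow_succ hp.out, mul_comm]
      exact Nat.mul_dvd_mul_left _ (pow_dvd_pow p n.le_succ)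
  rw [hn, hd] at h3
  obtain ⟨t, -, rfl⟩ := (Nat.dvd_prime_pow hp.out).1
    (Nat.dvd_of_mul_dvd_mul_left (Nat.sub_pos_of_lt hp.out.one_lt) (h3.trans h4))
  exact ⟨t, hd⟩

omit hp in
theorem exists_index_totient_dvd [Finite G] (hχ : IsIrrCharacter G χ) (h1 : χ 1 = 1) :
    (charKer χ).index.totient ∣ gd χ := by
  obtain ⟨φ, hφ⟩ := hχ.isCharacter.exists_monoidHom h1
  have hk : ∀ x, x ∈ charKer χ ↔ (Units.coeHom ℂ).comp φ x = 1 := fun x => by
    rw [hχ.isCharacter.mem_charKer, h1, hφ]; rfl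
  have : IsCyclic (G ⧸ charKer χ) := isCyclic_of_injective_ringHom
    (QuotientGroup.lift _ ((Units.coeHom ℂ).comp φ) fun x hx => (hk x).1 hx)
    ((injective_iff_map_eq_one _).2 fun x hx => by
      obtain ⟨x, rfl⟩ := QuotientGroup.mk_surjective x
      exact (QuotientGroup.eq_one_iff _).2 ((hk x).2 hx))
  obtain ⟨z, hz⟩ := IsCyclic.exists_generator (α := G ⧸ charKer χ)
  obtain ⟨z, rfl⟩ := QuotientGroup.mk_surjective z
  rw [index, ← orderOf_eq_card_of_forall_mem_zpowers hz]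
  exact totient_dvd_gd hχ (mem_center_iff.2 fun g => IsCyclic.isMulCommutative.is_comm.comm _ _)

theorem exists_ind_normal [Fintype G] (hG : IsPGroup p G) (hχ : IsIrrCharacter G χ) (h1 : χ 1 ≠ 1) :
    ∃ (H : Subgroup G) (θ : H → ℂ), H.Normal ∧ H.index = p ∧ IsIrrCharacter H θ ∧ χ = indFun H θ := by
  classical
  have := hG.isNilpotent
  obtain ⟨K, lam, rfl⟩ := isMonomialChar_of_nilpotent hχ
  obtain ⟨H, hH, hKH⟩ := (eq_top_or_exists_le_coatom K).resolve_left (by
    rintro rfl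
    simp [indFun_one] at h1)
  have h2 := H04.index_eq_of_isCoatom hG hH
  have h3 := indFun_trans K H hKH (fun h => (lam h : ℂ))
  refine ⟨H, _, H04.normal_of_index_eq hG h2, h2, isIrr_of_isIrr_indFun H (isCharacter_indFun _ ?_)
    (h3 ▸ hχ), h3.symm⟩
  exact (isCharacter_monoidHom lam).comp (subgroupOfEquivOfLe hKH).toMonoidHom

omit hp in
theorem conjFun_out (H : Subgroup G) [H.Normal] {θ : H → ℂ} (hθ : IsClassFunction H θ) (g : G) :
    conjFun H (g : G ⧸ H).out θ = conjFun H g θ := by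
  obtain ⟨h, hh⟩ := QuotientGroup.mk_out_eq_mul H g
  refine (conjFun_eq_conjFun_iff H).2 (le_inertia H hθ ?_)
  rw [hh]
  exact (inferInstance : H.Normal).conj_mem _ h.2 g

omit hp in
theorem index_ker_conjFun (H : Subgroup G) [H.Normal] [Finite H] {θ : H → ℂ} (hθ : IsCharacter H θ) (g : G) :
    (charKer (conjFun H g θ)).index = (charKer θ).index := by
  rw [← index_comap_of_surjective (charKer θ) (f := (MulAut.conjNormal g).toMonoidHom)
    (MulAut.conjNormal g).surjective]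
  congr 1
  ext x
  rw [(isCharacter_conjFun H hθ g).mem_charKer, mem_comap, hθ.mem_charKer, conjFun_apply_one]
  rfl

omit hp in
theorem index_ker_ind_le [Fintype G] (H : Subgroup G) [H.Normal] {θ : H → ℂ} (hθ : IsIrrCharacter H θ)
    {K : Subgroup H} (h : ∀ g, K ≤ charKer (conjFun H g θ)) :
    (charKer (indFun H θ)).index ≤ H.index * K.index := by
  rw [mul_comm, ← index_map_subtype]
  refine Nat.le_of_dvd (Nat.pos_of_ne_zero index_ne_zero_of_finite) (index_dvd_of_le ?_)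
  rintro _ ⟨x, hx, rfl⟩
  refine (mem_charKer_indFun H hθ.isCharacter hθ.ne_zero _).2 fun g =>
    ⟨(inferInstance : H.Normal).conj_mem' _ x.2 g, ?_⟩
  have := ((isCharacter_conjFun H hθ.isCharacter g⁻¹).mem_charKer).1 (h g⁻¹ hx)
  rw [conjFun_apply_one, conjFun_apply] at this
  simpa using this

theorem feit_bound.{u} (n : ℕ) : ∀ (G : Type u) [Group G] [Finite G], Nat.card G = n → IsPGroup p G →
    ∀ χ : G → ℂ, IsIrrCharacter G χ → ∀ a t : ℕ, (charKer χ).index = p ^ a → gd χ ≤ (p - 1) * p ^ t →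
      (p - 1) * a + 1 ≤ charDegree χ + (p - 1) * (t + 1) * charDegree χ := by
  induction n using Nat.strong_induction_on with
  | _ n ih =>
  intro G _ _ hn hG χ hχ a t ha ht
  classical
  have := Fintype.ofFinite G
  obtain ⟨q, hq⟩ : ∃ q, p = q + 2 := ⟨p - 2, by have := hp.out.two_le; omega⟩
  have hq1 : p - 1 = q + 1 := by omega
  by_cases h1 : χ 1 = 1
  · have h2 := (Nat.le_of_dvd (Nat.pos_of_ne_zero (gd_ne_zero hχ.isCharacter))
      (exists_index_totient_dvd hχ h1)).trans ht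
    rw [charDegree_eq_of_apply_one (n := 1) (by simpa using h1), mul_one, add_comm]
    refine Nat.add_le_add_left (Nat.mul_le_mul_left _ ?_) _
    rcases a with _ | a
    · omega
    rw [ha, Nat.totient_prime_pow_succ hp.out, mul_comm] at h2
    exact Nat.succ_le_succ ((Nat.pow_le_pow_iff_right hp.out.one_lt).1
      (Nat.le_of_mul_le_mul_left h2 (by omega)))
  obtain ⟨H, θ, hH, h2, hθ, rfl⟩ := exists_ind_normal hG hχ h1
  obtain ⟨b, hb⟩ := (hG.to_subgroup H).index (charKer θ)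
  have ih' := ih _ (by
    rw [← hn, ← H.card_mul_index, h2]
    exact (Nat.lt_mul_iff_one_lt_right Nat.card_pos).2 hp.out.one_lt) H rfl (hG.to_subgroup H) θ hθ b
  have hst : stabilizer (RingAut ℂ) θ ≤ stabilizer (RingAut ℂ) (indFun H θ) := fun σ hσ =>
    funext fun g => (indFun_map H (σ : ℂ →+* ℂ) θ g).symm.trans (congrFun (congrArg (indFun H) hσ) g)
  have hcj : ∀ σ ∈ stabilizer (RingAut ℂ) (indFun H θ), ∃ g, conjFun H g θ = σ • θ := fun σ hσ =>
    (indFun_eq_iff_conj H hθ (hθ.galois_equiv σ)).1 (funext fun g =>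
      ((indFun_map H (σ : ℂ →+* ℂ) θ g).trans (congrFun hσ g)).symm)
  have hf := hθ.charDegree_pos
  rw [charDegree_indFun H hθ.isCharacter, h2]
  by_cases h3 : stabilizer (RingAut ℂ) (indFun H θ) ≤ stabilizer (RingAut ℂ) θ
  · have h4 := ih' t hb (by rwa [gd, le_antisymm hst h3])
    have h5 := index_ker_ind_le H hθ (K := ⨅ q : G ⧸ H, charKer (conjFun H q.out θ)) fun g =>
      conjFun_out H hθ.isClassFunction g ▸ iInf_le _ _
    have h6 := index_iInf_le fun q : G ⧸ H => charKer (conjFun H q.out θ)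
    simp only [index_ker_conjFun H hθ.isCharacter, Finset.prod_const, Finset.card_univ,
      ← Nat.card_eq_fintype_card, ← index_eq_card, h2, hb] at h6
    have h7 := h5.trans (Nat.mul_le_mul_left _ h6)
    rw [ha, h2, ← pow_mul, ← pow_succ', Nat.pow_le_pow_iff_right hp.out.one_lt] at h7
    rw [hq1] at h4 ⊢
    calc (q + 1) * a + 1 ≤ (q + 1) * (b * p + 1) + 1 := by gcongr
      _ = p * ((q + 1) * b + 1) := by rw [hq]; ring
      _ ≤ _ := (Nat.mul_le_mul_left _ h4).trans_eq (by ring)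
  obtain ⟨σ, h4, h5⟩ := SetLike.not_le_iff_exists.1 h3
  obtain ⟨x, hx⟩ := hcj σ h4
  let S : Subgroup G :=
    { carrier := {g | ∃ τ : RingAut ℂ, conjFun H g θ = τ • θ}
      one_mem' := ⟨1, by simp⟩
      mul_mem' := by
        rintro g h ⟨τ, hτ⟩ ⟨υ, hυ⟩
        exact ⟨τ * υ, by rw [conjFun_mul, hτ, mul_smul, ← hυ]; rfl⟩
      inv_mem' := by
        rintro g ⟨τ, hτ⟩
        refine ⟨τ⁻¹, ?_⟩
        rw [eq_inv_smul_iff]
        exact (congrArg (conjFun H g⁻¹) hτ).symm.trans (conjFun_inv_conjFun H g θ) }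
  have hS : S = ⊤ := (H04.isCoatom_of_index_prime (h2 ▸ hp.out)).2 S (lt_of_le_of_ne
    (fun h hh => ⟨1, by rw [one_smul]; exact le_inertia H hθ.isClassFunction hh⟩) fun h =>
      h5 (hx.symm.trans (le_inertia H hθ.isClassFunction (h.ge ⟨σ, hx⟩))))
  have h6 := index_ker_ind_le H hθ (K := charKer θ) fun g y hy => by
    obtain ⟨τ, hτ⟩ : g ∈ S := hS ▸ mem_top g
    rw [(isCharacter_conjFun H hθ.isCharacter g).mem_charKer, hτ]
    exact congrArg τ (hθ.isCharacter.mem_charKer.1 hy)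
  rw [ha, h2, hb, ← pow_succ', Nat.pow_le_pow_iff_right hp.out.one_lt] at h6
  have h7 : (stabilizer (RingAut ℂ) θ).relIndex (stabilizer (RingAut ℂ) (indFun H θ)) ≤ p := by
    rw [relIndex, show (stabilizer (RingAut ℂ) θ).subgroupOf _ =
      stabilizer (stabilizer (RingAut ℂ) (indFun H θ)) θ from rfl, index_stabilizer]
    refine (Set.ncard_le_ncard (t := Set.range fun q : G ⧸ H => conjFun H q.out θ) ?_
      (Set.finite_range _)).trans ?_
    · rintro _ ⟨τ, rfl⟩
      obtain ⟨g, hg⟩ := hcj τ τ.2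
      exact ⟨g, (conjFun_out H hθ.isClassFunction g).trans hg⟩
    · rw [← Set.image_univ, ← h2, index, ← Set.ncard_univ]
      exact Set.ncard_image_le Set.finite_univ
  have h8 := ih' (t + 1) hb (by
    rw [gd, ← relIndex_mul_index hst, pow_succ', mul_left_comm]
    exact Nat.mul_le_mul h7 ht)
  rw [hq1] at h8 ⊢
  rw [hq]
  obtain ⟨f, hf'⟩ : ∃ f, charDegree θ = f + 1 := ⟨_, (Nat.succ_pred_eq_of_pos hf).symm⟩
  rw [hf'] at h8 ⊢
  have h9 : (q + 1) * a ≤ (q + 1) * (b + 1) := Nat.mul_le_mul_left _ h6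
  nlinarith [Nat.zero_le (q * q * (t * f + t + f)), Nat.zero_le (q * (t * f + t + f)), Nat.zero_le (t * f),
    Nat.zero_le (q * q)]

omit hp in
theorem isCharacter_sub_sum [Fintype G] (hχ : IsCharacter G χ) (s : Finset (G → ℂ))
    (h : ∀ ψ ∈ s, IsIrrCharacter G ψ ∧ classInner χ ψ ≠ 0) : IsCharacter G (χ - ∑ ψ ∈ s, ψ) := by
  classical
  induction s using Finset.induction_on with
  | empty => simpa using hχ
  | insert ψ s hψ ih =>
    rw [Finset.sum_insert hψ, add_comm, ← sub_sub]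
    have h1 := h ψ (Finset.mem_insert_self _ _)
    refine (ih fun φ hφ => h φ (Finset.mem_insert_of_mem hφ)).sub_constituent h1.1 ?_
    rw [H05.classInner_sub_left, H05.classInner_sum_left, Finset.sum_eq_zero fun φ hφ =>
      (h φ (Finset.mem_insert_of_mem hφ)).1.classInner_of_ne h1.1 fun e => hψ (e ▸ hφ), sub_zero]
    exact h1.2

theorem geom_le {N u : ℕ} (h : (p - 1) * p ^ u < N) {a : ℕ} (ha : (p - 1) * a + 1 ≤ p ^ (u + 1)) :
    a ≤ ∑ i ∈ Finset.range N, (p - 1) * p ^ u / ((p - 1) * p ^ i) := by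
  have h0 : 0 < p - 1 := Nat.sub_pos_of_lt hp.out.one_lt
  have h1 : u + 1 ≤ N := ((Nat.lt_pow_self hp.out.one_lt).trans_le (Nat.le_mul_of_pos_left _ h0)).trans h
  refine le_trans ?_ (Finset.sum_le_sum_of_subset (Finset.range_mono h1))
  rw [Finset.sum_congr rfl (g := fun i => p ^ (u + 1 - 1 - i)) fun i hi => by
    rw [Nat.mul_div_mul_left _ _ h0, Nat.pow_div (Nat.lt_succ_iff.1 (Finset.mem_range.1 hi)) hp.out.pos]
    rfl, Finset.sum_range_reflect (fun i => p ^ i)]
  have := Nat.geomSum_eq hp.out.two_le (u + 1)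
  rw [this, Nat.le_div_iff_mul_le h0, mul_comm]
  omega

theorem irr_bound [Finite G] (hG : IsPGroup p G) (hχ : IsIrrCharacter G χ) {a N : ℕ}
    (ha : (charKer χ).index = p ^ a) (hN : gd χ * charDegree χ < N) :
    a ≤ ∑ i ∈ Finset.range N, gd χ * charDegree χ / ((p - 1) * p ^ i) := by
  by_cases h : charKer χ = ⊤
  · rw [h, index_top, eq_comm, Nat.pow_eq_one] at ha
    rw [ha.resolve_left hp.out.ne_one]
    exact Nat.zero_le _
  obtain ⟨t, ht⟩ := gd_eq hG hχ h
  obtain ⟨n, hn⟩ := hG.exists_card_eq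
  obtain ⟨s, -, hs⟩ := (Nat.dvd_prime_pow hp.out).1 (hn ▸ hχ.charDegree_dvd_card)
  have h1 := feit_bound _ G rfl hG χ hχ a t ha ht.le
  rw [ht, hs, mul_assoc, ← pow_add] at hN ⊢
  refine geom_le hN (h1.trans ?_)
  have h2 : 1 + (t + 1) * (p - 1) ≤ (1 + (p - 1)) ^ (t + 1) := one_add_mul_le_pow_of_sq_nonneg
    (Nat.zero_le _) (Nat.zero_le _) (Nat.zero_le _) _
  rw [Nat.add_sub_cancel' hp.out.one_le] at h2
  rw [hs, add_right_comm, pow_add]
  nlinarith [Nat.mul_le_mul_right (p ^ s) h2]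

theorem rat_bound [Finite G] (hG : IsPGroup p G) (N n : ℕ) : ∀ χ : G → ℂ, IsCharacter G χ →
    (∀ σ : RingAut ℂ, σ • χ = χ) → charDegree χ = n → n < N → ∀ a, (charKer χ).index = p ^ a →
      a ≤ ∑ i ∈ Finset.range N, n / ((p - 1) * p ^ i) := by
  classical
  have := Fintype.ofFinite G
  induction n using Nat.strong_induction_on with
  | _ n ih =>
  intro χ hχ hσ hn hN a ha
  by_cases h0 : χ = 0
  · rw [show charKer χ = ⊤ from eq_top_iff.2 fun x _ => hχ.mem_charKer.2 (by simp [h0]), index_top, eq_comm,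
      Nat.pow_eq_one] at ha
    rw [ha.resolve_left hp.out.ne_one]
    exact Nat.zero_le _
  obtain ⟨θ, hθ, h1⟩ := hχ.exists_constituent h0
  have hfin : (orbit (RingAut ℂ) θ).Finite :=
    Set.finite_of_ncard_ne_zero (index_stabilizer (RingAut ℂ) θ ▸ gd_ne_zero hθ.isCharacter)
  have h2 := isCharacter_sub_sum hχ hfin.toFinset fun ψ hψ => by
    obtain ⟨σ, rfl⟩ := hfin.mem_toFinset.1 hψ
    refine ⟨hθ.galois_equiv σ, ?_⟩
    rw [← hσ σ]
    exact (classInner_galois_of_generalized hχ.isGeneralizedCharacter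
      hθ.isCharacter.isGeneralizedCharacter (σ : ℂ →+* ℂ)).trans_ne h1
  have h3 : ∀ x, θ x = θ 1 → (∑ ψ ∈ hfin.toFinset, ψ) x = (gd θ * charDegree θ : ℕ) := fun x hx => by
    rw [Finset.sum_apply, Finset.sum_congr rfl (g := fun _ => θ 1) fun ψ hψ => by
      obtain ⟨σ, rfl⟩ := hfin.mem_toFinset.1 hψ
      exact (congrArg σ hx).trans (hθ.isCharacter.galois_apply_one (σ : ℂ →+* ℂ))]
    rw [Finset.sum_const, ← Set.ncard_eq_toFinset_card _ hfin, ← index_stabilizer, nsmul_eq_mul,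
      Nat.cast_mul, hθ.charDegree_eq]
  set χ' := χ - ∑ ψ ∈ hfin.toFinset, ψ with hχ'
  have h4 : n = gd θ * charDegree θ + charDegree χ' := by
    have := h2.charDegree_eq
    rw [hχ', Pi.sub_apply, h3 1 rfl, ← hχ.charDegree_eq, hn, eq_sub_iff_add_eq'] at this
    exact_mod_cast this.symm
  have h5 := Nat.mul_pos (Nat.pos_of_ne_zero (gd_ne_zero hθ.isCharacter)) hθ.charDegree_pos
  obtain ⟨b, hb⟩ := hG.index (charKer θ)
  obtain ⟨c, hc⟩ := hG.index (charKer χ')
  have h6 := ih _ (by omega) χ' h2 (fun σ => by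
    rw [hχ', smul_sub, hσ, Finset.smul_sum]
    congr 1
    exact Finset.sum_bijective (σ • ·) (MulAction.bijective σ) (fun ψ => by
      simp only [Set.Finite.mem_toFinset]
      exact ⟨fun h => mem_orbit_of_mem_orbit σ h,
        fun h => by simpa using mem_orbit_of_mem_orbit σ⁻¹ h⟩) fun _ _ => rfl) rfl (by omega) c hc
  have h7 := irr_bound hG hθ hb (N := N) (by omega)
  have h8 : (charKer χ).index ≤ (charKer θ).index * (charKer χ').index :=
    (Nat.le_of_dvd (Nat.pos_of_ne_zero index_ne_zero_of_finite) (index_dvd_of_le fun x hx => by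
      have := h2.mem_charKer.1 hx.2
      rw [hχ', Pi.sub_apply, Pi.sub_apply, h3 1 rfl, h3 x (hθ.isCharacter.mem_charKer.1 hx.1),
        sub_left_inj] at this
      exact hχ.mem_charKer.2 this)).trans index_inf_le
  rw [ha, hb, hc, ← pow_add, Nat.pow_le_pow_iff_right hp.out.one_lt] at h8
  refine h8.trans ((add_le_add h7 h6).trans ?_)
  rw [← Finset.sum_add_distrib, h4]
  exact Finset.sum_le_sum fun i _ => Nat.div_add_div_le_add_div

/-- a character fixed by the automorphisms fixing the `r`-th roots of unity is rational on `p`-elements -/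
theorem rat_of_fix [Finite G] (hχ : IsCharacter G χ) {r : ℕ} (hr : r.Coprime p)
    (h : ∀ σ : RingAut ℂ, (∀ ω : ℂ, ω ^ r = 1 → σ ω = ω) → ∀ g, σ (χ g) = χ g) {g : G} {e : ℕ}
    (hg : g ^ p ^ e = 1) (σ : RingAut ℂ) : σ (χ g) = χ g := by
  have h0 : p ^ e ≠ 0 := pow_ne_zero _ hp.out.ne_zero
  rcases eq_or_ne r 0 with rfl | hr0
  · exact absurd (Nat.coprime_zero_left _ |>.1 hr) hp.out.ne_one
  obtain ⟨k, hk, h1⟩ := exists_pow_of_ringHom h0 (σ : ℂ →+* ℂ)
  obtain ⟨l, h2, h3⟩ := Nat.chineseRemainder (hr.pow_right e) 1 k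
  obtain ⟨τ, hτ⟩ := exists_ringEquiv_pow (k := l) (mul_ne_zero hr0 h0) (Nat.Coprime.mul_right
    (by rw [Nat.Coprime, h2.gcd_eq]; simp) (by rw [Nat.Coprime, h3.gcd_eq]; exact hk))
  have h4 : ∀ ω : ℂ, ω ^ orderOf g = 1 → ω ^ p ^ e = 1 := fun ω hω => by
    obtain ⟨c, hc⟩ := orderOf_dvd_of_pow_eq_one hg
    rw [hc, pow_mul, hω, one_pow]
  refine (hχ.isGeneralizedCharacter.galois_apply_eq_pow (σ : ℂ →+* ℂ) g k fun ω hω => h1 ω (h4 ω hω)).trans
    ((hχ.isGeneralizedCharacter.galois_apply_eq_pow (τ : ℂ →+* ℂ) g k fun ω hω => ?_).symm.trans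
      (h τ (fun ω hω => ?_) g))
  · exact (hτ ω (by rw [mul_comm, pow_mul, h4 ω hω, one_pow])).trans
      (pow_eq_pow_of_modEq h3 (h4 ω hω))
  · exact (hτ ω (by rw [pow_mul, hω, one_pow])).trans ((pow_eq_pow_of_modEq h2 hω).trans (pow_one _))

omit hp in
theorem exists_ext_fix [Finite G] (K : Subgroup G) [K.Normal] (hc : K.index.Coprime (Nat.card K)) (n : ℕ) :
    ∀ ψ : K → ℂ, IsCharacter K ψ → (∀ g, conjFun K g ψ = ψ) → charDegree ψ = n →
      ∃ χ : G → ℂ, IsCharacter G χ ∧ (∀ k : K, χ k = ψ k) ∧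
        ∀ σ : RingAut ℂ, (∀ ω : ℂ, ω ^ Nat.card K = 1 → σ ω = ω) → ∀ g, σ (χ g) = χ g := by
  classical
  have := Fintype.ofFinite G
  induction n using Nat.strong_induction_on with
  | _ n ih =>
  intro ψ hψ hinv hn
  by_cases h0 : ψ = 0
  · exact ⟨0, isCharacter_zero, fun k => by simp [h0], fun σ _ g => map_zero σ⟩
  obtain ⟨θ, hθ, h1⟩ := hψ.exists_constituent h0
  have hT := le_inertia K hθ.isClassFunction
  have h2 := (isIrr_subgroupOf_iff K _ hT θ).2 hθ
  have h3 : Nat.card (K.subgroupOf (inertia K θ)) = Nat.card K :=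
    Nat.card_congr (subgroupOfEquivOfLe hT).toEquiv
  have h4 : (K.subgroupOf (inertia K θ)).index.Coprime (Nat.card (K.subgroupOf (inertia K θ))) :=
    h3 ▸ hc.coprime_dvd_left (relIndex_dvd_index_of_le hT)
  obtain ⟨α, h5, h6⟩ := exists_canon h4 h2 (top_le_iff.1 fun g _ =>
    ⟨le_normalizer_of_normal (K := ⊤) trivial, fun k => (mem_inertia' K).1 g.2 ⟨k, k.2⟩⟩)
  have h7 : (fun k : K => α ⟨k, hT k.2⟩) = θ := funext fun k => h6 ⟨_, k.2⟩
  obtain ⟨h8, h9⟩ := clifford_corr_irr K _ hT hθ rfl (h5.irr.of_restrict h5.ch _)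
    (by rw [h7, hθ.classInner_self]; exact one_ne_zero)
  rw [h7, hθ.classInner_self] at h9
  have h10 := clifford_finset K h8 hθ (h9 ▸ one_ne_zero)
  rw [h9, one_smul] at h10
  have h11 := isCharacter_sub_sum hψ (Finset.univ.image fun g => conjFun K g θ) fun φ hφ => by
    obtain ⟨g, -, rfl⟩ := Finset.mem_image.1 hφ
    exact ⟨isIrr_conjFun K hθ g, by rwa [← hinv g, classInner_conjFun]⟩
  rw [← h10] at h11
  obtain ⟨χ, a1, a2, a3⟩ := ih _ (by
    have := h11.charDegree_eq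
    rw [Pi.sub_apply, ← hψ.charDegree_eq, hn, OneMemClass.coe_one, ← h8.charDegree_eq,
      eq_sub_iff_add_eq] at this
    have h12 := h8.charDegree_pos
    norm_cast at this
    omega) _ h11 (fun g => by rw [conjFun_sub, hinv, conjFun_res K h8.isClassFunction]) rfl
  refine ⟨χ + indFun _ α, a1.add h8.isCharacter, fun k => by simp [a2], fun σ hσ g => ?_⟩
  rw [Pi.add_apply, map_add, a3 σ hσ]
  congr 1
  exact (indFun_map _ (σ : ℂ →+* ℂ) α g).symm.trans (congrFun (congrArg (indFun _)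
    (funext (h5.gal h4 (σ : ℂ →+* ℂ) (h3 ▸ hσ)))) g)

theorem fix_bound [Finite G] (hχ : IsCharacter G χ) {r : ℕ} (hr : r.Coprime p)
    (h : ∀ σ : RingAut ℂ, (∀ ω : ℂ, ω ^ r = 1 → σ ω = ω) → ∀ g, σ (χ g) = χ g) {P : Subgroup G}
    (hP : IsPGroup p P) {a : ℕ} (ha : p ^ a ∣ (charKer χ).relIndex P) :
    a ≤ ∑ i ∈ Finset.range (charDegree χ + 1), charDegree χ / ((p - 1) * p ^ i) := by
  obtain ⟨b, hb⟩ := hP.index (charKer fun x : P => χ x)
  rw [relIndex, show (charKer χ).subgroupOf P = charKer fun x : P => χ x from ext fun x => by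
    rw [mem_subgroupOf, hχ.mem_charKer, (hχ.restrict P).mem_charKer]; rfl, hb,
    Nat.pow_dvd_pow_iff_le_right hp.out.one_lt] at ha
  refine ha.trans (rat_bound hP _ _ _ (hχ.restrict P) (fun σ => funext fun x => ?_) rfl
    (Nat.lt_succ_self _) b hb)
  obtain ⟨e, he⟩ := hP x
  exact rat_of_fix hχ hr h (congrArg Subtype.val he) σ

theorem psolv_bound [Finite G] (hχ : IsCharacter G χ) (hf : ∀ g, χ g = χ 1 → g = 1) (h : IsPSolvable p G) :
    (pCore p G).index.factorization p ≤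
      ∑ i ∈ Finset.range (charDegree χ + 1), charDegree χ / ((p - 1) * p ^ i) := by
  obtain ⟨k, hk⟩ := H02.exists_card_pCore (p := p) (G := G)
  have := (H02.pCore_isPGroup p G).isNilpotent
  obtain ⟨L, -, hL, -, hmul, hN⟩ := GY.frattini_compl (GY.pCore_le_opp (p := p) (G := G)) (by
    rw [hk, GY.relIndex_opp]
    exact Nat.Coprime.pow_left _ (H02.pPrimeCore_coprime p _).symm) inferInstance
  have hLp : (Nat.card L).Coprime p := by rw [hL, GY.relIndex_opp]; exact H02.pPrimeCore_coprime p _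
  let f := (QuotientGroup.mk' (pCore p G)).comp (normalizer (L : Set G)).subtype
  have hf' : Function.Surjective f := fun y => by
    obtain ⟨g, rfl⟩ := QuotientGroup.mk_surjective y
    obtain ⟨e, he, hg⟩ := hN g
    exact ⟨⟨e * g, hg⟩, by simp [f, (QuotientGroup.eq_one_iff e).2 he]⟩
  obtain ⟨Q⟩ : Nonempty (Sylow p (normalizer (L : Set G))) := inferInstance
  let P := (Q : Subgroup (normalizer (L : Set G))).map (normalizer (L : Set G)).subtype
  have hP : IsPGroup p P := Q.2.map _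
  have hPL : P ≤ normalizer (L : Set G) := map_subtype_le _
  have h1 : (pCore p G).relIndex P = p ^ (pCore p G).index.factorization p := by
    rw [H24.relIndex_eq_card_map, map_map, index, ← (Q.mapSurjective hf').card_eq_multiplicity]
    rfl
  have := normal_subgroupOf (sup_le le_normalizer hPL : L ⊔ P ≤ normalizer (L : Set G))
  have h2 : Nat.card (L.subgroupOf (L ⊔ P)) = Nat.card L :=
    Nat.card_congr (subgroupOfEquivOfLe le_sup_left).toEquiv
  obtain ⟨m, hm⟩ := hP.exists_card_eq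
  obtain ⟨β, b1, b2, b3⟩ := exists_ext_fix (L.subgroupOf (L ⊔ P)) (by
    rw [h2]
    refine (hLp.symm.pow_left m).coprime_dvd_left ?_
    rw [← hm]
    exact index_dvd_of_sup (S := P.subgroupOf (L ⊔ P)) (by
      rw [← subgroupOf_sup le_sup_left le_sup_right, subgroupOf_self]) |>.trans
      (Nat.card_congr (subgroupOfEquivOfLe le_sup_right).toEquiv).dvd) _ _
    ((hχ.restrict (L ⊔ P)).restrict _) (conjFun_res _ (hχ.restrict (L ⊔ P)).isClassFunction) rfl
  have h3 : charDegree β = charDegree χ := congrArg (fun z : ℂ => ⌊z.re⌋₊) (b2 1)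
  rw [← h3]
  refine fix_bound b1 (h2 ▸ hLp) b3 (hP.comap_subtype (K := L ⊔ P)) ?_
  rw [← h1, ← relIndex_subgroupOf (le_sup_right : P ≤ L ⊔ P), ← inf_relIndex_right (charKer β)]
  refine relIndex_dvd_of_le_left _ fun x hx => ?_
  have h4 : ∀ l ∈ L, l * x = x * l := fun l hl => by
    have h5 := commutator_le_inf (L.subgroupOf (L ⊔ P)) (charKer β) (commutator_mem_commutator
      (g₁ := ⟨l, mem_sup_left hl⟩) hl hx.1)
    have := hf _ ((b2 ⟨_, h5.1⟩).symm.trans ((b1.mem_charKer.1 h5.2).trans (b2 1)))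
    exact commutatorElement_eq_one_iff_mul_comm.1 this
  have h5 : ((x : G) : G ⧸ pCore p G) ∈ pPrimeCore p (G ⧸ pCore p G) :=
    H24.PS.centralizer_pPrimeCore_le (H24.PS.quotient h _) (H02.pCore_quotient_pCore p G) fun y hy => by
      obtain ⟨y, rfl⟩ := QuotientGroup.mk_surjective y
      obtain ⟨e, he, l, hl, rfl⟩ := hmul y hy
      rw [QuotientGroup.mk_mul, (QuotientGroup.eq_one_iff e).2 he, one_mul, ← QuotientGroup.mk_mul, h4 l hl]
      rfl
  exact (QuotientGroup.eq_one_iff (x : G)).1 ((H02.isPGroup_inf_pPrimeCore (hP.map (QuotientGroup.mk' _))).le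
    ⟨mem_map_of_mem _ hx.2, h5⟩)

end H07
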