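import Cfsg.Agent.H07.FTB
import Cfsg.Agent.H07.Glb6
import Cfsg.Agent.H07.LinGrp
import Cfsg.Agent.H07.Extend
import Cfsg.Agent.H24.PSolv
import Cfsg.Agent.H03.Focal

/-! Linear groups of degree less than `p`: Itô's theorem for `p`-solvable groups. -/

namespace H07
open Cfsg H05 H06 H01
open scoped ComplexConjugate commutatorElement Pointwise

variable {G : Type*} [Group G] {χ : G → ℂ}

theorem mem_charCenter_of_cent [Finite G] (hχ : IsCharacter G χ) {C : Subgroup G}
    (h : IsIrrCharacter C (fun c : C => χ c)) {x : G} (hx : ∀ c ∈ C, c * x = x * c) : x ∈ charCenter χ := by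
  have hle : C ≤ Subgroup.centralizer ({x} : Set G) := fun c hc =>
    Subgroup.mem_centralizer_singleton_iff.2 (hx c hc)
  have h1 : IsIrrCharacter _ (fun c : Subgroup.centralizer ({x} : Set G) => χ c) :=
    H05.Cfsg.IsIrrCharacter.of_comp (hχ.restrict _) (Subgroup.inclusion hle) h
  exact hχ.mem_charCenter_of_norm_eq (h1.norm_eq_of_mem_center
    (x := ⟨x, Subgroup.mem_centralizer_singleton_iff.2 rfl⟩) (Subgroup.mem_center_iff.2 fun g =>
      Subtype.ext (Subgroup.mem_centralizer_singleton_iff.1 g.2)))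

theorem ito_core [Finite G] {p q : ℕ} [hp : Fact p.Prime] [hq : Fact q.Prime] (hne : q ≠ p) {P Q : Subgroup G}
    [Q.Normal] (hP : IsPGroup p P) (hQ : IsPGroup q Q) (hPQ : P ⊔ Q = ⊤) (hχ : IsIrrCharacter G χ)
    (hd : charDegree χ < p) (hk : ¬ P ≤ charCenter χ) : charDegree χ + 1 = p ∧ ∃ k, charDegree χ = 2 ^ k := by
  classical
  have hi : Q.index ∣ Nat.card P := by
    rw [← Subgroup.relIndex_top_right, ← hPQ, Subgroup.relIndex_sup_right]
    exact Subgroup.relIndex_dvd_card _ _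
  obtain ⟨a, ha⟩ := IsPGroup.iff_card.1 hP
  have hθ := isIrr_res_of_coprime Q hχ (Nat.Coprime.coprime_dvd_right hi (ha ▸ Nat.Coprime.pow_right _
    ((Nat.coprime_comm.1 ((Nat.Prime.coprime_iff_not_dvd hp.out).2
      (Nat.not_dvd_of_pos_of_lt hχ.charDegree_pos hd))))))
  have hpQ : ¬ p ∣ Nat.card Q := by
    obtain ⟨b, hb⟩ := IsPGroup.iff_card.1 hQ
    rw [hb]
    exact fun h => hne ((Nat.prime_dvd_prime_iff_eq hp.out hq.out).1 (hp.out.dvd_of_dvd_pow h)).symm
  set C := Q ⊓ Subgroup.centralizer (P : Set G)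
  have hCQ : C ≤ Q := inf_le_left
  have hPC : P ≤ Subgroup.centralizer (C : Set G) := Subgroup.le_centralizer_iff.1 inf_le_right
  have hc := corr_pgroup hP (le_normalizer_of_normal P Q) hpQ rfl hCQ
  have e : {β | IsIrrCharacter C β} = IrrInv P C :=
    Set.ext fun β => ⟨fun h => ⟨h, hPC.trans (centralizer_le_stab β)⟩, fun h => h.1⟩
  rw [e] at hc
  have hI : (fun n : Q => χ n) ∈ IrrInv P Q := ⟨hθ, (le_stab_iff (le_normalizer_of_normal P Q)).2
    fun s _ g g' e => by simp only [e, hχ.isClassFunction g s]⟩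
  obtain ⟨ξ, hξ, h1, -⟩ := hc.ex _ hI
  have h2 := hc.degree hP (hPC.trans (Subgroup.centralizer_le_normalizer _)) hI hξ (not_dvd_of_pm_one h1)
  letI := Fintype.ofFinite C
  have h3 : classInner (fun c : C => χ c) ξ ≠ 0 :=
    (mult_ne_zero_iff (Subgroup.inclusion hCQ) hθ.isCharacter hξ.1.isCharacter).1
      fun h => not_dvd_of_pm_one h1 (h ▸ dvd_zero p)
  have h4 : charDegree ξ ≤ charDegree χ := (hχ.isCharacter.restrict C).charDegree_le_of_constituent hξ.1 h3
  have h5 : charDegree ξ ≠ charDegree χ := fun h => hk fun x hx => mem_charCenter_of_cent hχ.isCharacter (C := C)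
    (by
      rw [(hχ.isCharacter.restrict C).eq_of_constituent_of_degree_eq hξ.1 h3
        (by rw [← hξ.1.charDegree_eq, h, hχ.charDegree_eq]; rfl)]
      exact hξ.1) fun c hc => hPC hx c hc
  rw [charDegree_restrict] at h2
  have h6 : charDegree χ + charDegree ξ = p := by
    rcases h1 with h1 | h1
    · rw [h1, one_mul, ZMod.natCast_eq_natCast_iff'] at h2
      rw [Nat.mod_eq_of_lt hd, Nat.mod_eq_of_lt (h4.trans_lt hd)] at h2
      exact absurd h2.symm h5
    · have h7 : p ∣ charDegree χ + charDegree ξ := by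
        rw [← ZMod.natCast_eq_zero_iff, Nat.cast_add, h2, h1]; ring
      obtain ⟨c, hc⟩ := h7
      have := hχ.charDegree_pos
      obtain rfl : c = 1 := by
        rcases c with _ | _ | c
        · omega
        · rfl
        · nlinarith
      omega
  obtain ⟨b, hb⟩ := IsPGroup.iff_card.1 hQ
  obtain ⟨i, -, hi⟩ := (Nat.dvd_prime_pow hq.out).1 (hb ▸ hθ.charDegree_dvd_card)
  obtain ⟨c, hc'⟩ := IsPGroup.iff_card.1 (hQ.to_le hCQ)
  obtain ⟨j, -, hj⟩ := (Nat.dvd_prime_pow hq.out).1 (hc' ▸ hξ.1.charDegree_dvd_card)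
  rw [charDegree_restrict] at hi
  have hi0 : i ≠ 0 := by
    rintro rfl
    have := hξ.1.charDegree_pos
    rw [pow_zero] at hi
    omega
  obtain rfl : j = 0 := by
    by_contra hj0
    exact hne ((Nat.prime_dvd_prime_iff_eq hq.out hp.out).1
      (h6 ▸ dvd_add (hi ▸ dvd_pow_self q hi0) (hj ▸ dvd_pow_self q hj0)))
  rw [pow_zero] at hj
  refine ⟨by omega, i, ?_⟩
  have h8 := hξ.1.charDegree_pos
  have h9 : 2 ∣ q ^ i := by
    have := hp.out.eq_two_or_odd
    omega
  rw [hi, (Nat.prime_dvd_prime_iff_eq Nat.prime_two hq.out).1 (Nat.prime_two.dvd_of_dvd_pow h9)]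

theorem normal_of_abelian_psolv [Finite G] {p : ℕ} [hp : Fact p.Prime] (hs : IsPSolvable p G) (P : Sylow p G)
    (hab : ∀ x ∈ (P : Subgroup G), ∀ y ∈ (P : Subgroup G), x * y = y * x)
    (hc : pPrimeCore p G ≤ Subgroup.centralizer (P : Set G)) : (P : Subgroup G).Normal := by
  set K := pPrimeCore p G
  have h1 : pCore p (G ⧸ K) ≤ (P : Subgroup G).map (QuotientGroup.mk' K) :=
    H02.pCore_le_sylow (P.mapSurjective (QuotientGroup.mk'_surjective K))
  have h2 : (P : Subgroup G).map (QuotientGroup.mk' K) = pCore p (G ⧸ K) := by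
    refine le_antisymm (le_trans ?_ (H24.PS.centralizer_pCore_quot hs)) h1
    rintro _ ⟨x, hx, rfl⟩ y hy
    obtain ⟨z, hz, rfl⟩ := h1 hy
    rw [← map_mul, ← map_mul, hab z hz x hx]
  have h3 : (pCore p (G ⧸ K)).comap (QuotientGroup.mk' K) = (P : Subgroup G) ⊔ K := by
    rw [← h2, Subgroup.comap_map_eq, QuotientGroup.ker_mk']
  haveI : ((P : Subgroup G) ⊔ K).Normal := h3 ▸ inferInstance
  have h4 : (P : Subgroup G) ≤ pCore p G := (H02.le_pCoreOf le_sup_left (sup_le Subgroup.le_normalizer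
    (hc.trans (Subgroup.centralizer_le_normalizer _))) P.2).trans (H02.pCoreOf_le_pCore _)
  rw [le_antisymm h4 (H02.pCore_le_sylow P)]
  infer_instance

theorem ito_small [Finite G] (hχ : IsCharacter G χ) (hf : ∀ g, χ g = χ 1 → g = 1) {p : ℕ} [hp : Fact p.Prime]
    (hs : IsPSolvable p G) (hd : charDegree χ < p) (P : Sylow p G) (hP : ¬ (P : Subgroup G).Normal) :
    charDegree χ + 1 = p ∧ (∃ k, charDegree χ = 2 ^ k) ∧ IsIrrCharacter G χ := by
  classical
  obtain ⟨a, ha⟩ := IsPGroup.iff_card.1 P.2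
  have hab := comm_of_piNum hχ hf P fun r hr h => by
    rwa [(Nat.prime_dvd_prime_iff_eq hr hp.out).1 (hr.dvd_of_dvd_pow (ha ▸ h))]
  have h1 := mt (normal_of_abelian_psolv hs P hab) hP
  have hcop := H02.coprime_card_of_isPGroup P.2 (H02.pPrimeCore_coprime p G)
  obtain ⟨q, hq, Q, hQK, hQ, hPQ, hn⟩ : ∃ q : ℕ, q.Prime ∧ ∃ Q : Subgroup G, Q ≤ pPrimeCore p G ∧ IsPGroup q Q ∧
      (P : Subgroup G) ≤ Subgroup.normalizer (Q : Set G) ∧ ¬ Q ≤ Subgroup.centralizer (P : Set G) := by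
    by_contra hh
    refine h1 (le_of_sylow_le fun q hq => ?_)
    haveI := Fact.mk hq
    obtain ⟨Q, h2, h3, h4, h5⟩ := exists_invariant_sylow (le_normalizer_of_normal _ _) hcop
      (Or.inl (isSolvable_of_isPGroup P.2)) q
    exact ⟨Q, by_contra fun h => hh ⟨q, hq, Q, h2, h3, h5, h⟩, h4⟩
  haveI := Fact.mk hq
  have hne : q ≠ p := by
    rintro rfl
    refine hn ?_
    rw [← inf_eq_left.2 hQK, H02.isPGroup_inf_pPrimeCore hQ]
    exact bot_le
  set L := (P : Subgroup G) ⊔ Q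
  letI := Fintype.ofFinite L
  haveI := normal_subgroupOf_sup hPQ
  have hL := hχ.restrict L
  obtain ⟨ψ, h2, h3, h4⟩ : ∃ ψ, IsIrrCharacter L ψ ∧ classInner (fun x : L => χ x) ψ ≠ 0 ∧
      ¬ (P : Subgroup G).subgroupOf L ≤ charCenter ψ := by
    by_contra hh
    push Not at hh
    refine hn fun y hy x hx => ?_
    obtain ⟨m, h5, h6⟩ := hL.exists_nat_coeff
    let x' : L := ⟨x, Subgroup.mem_sup_left hx⟩
    let y' : L := ⟨y, Subgroup.mem_sup_right hy⟩
    have := hf (y * x * y⁻¹ * x⁻¹) ((congrFun h6 (y' * x' * y'⁻¹ * x'⁻¹)).trans (Eq.trans ?_ (congrFun h6 1).symm))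
    · rw [mul_inv_eq_one, mul_inv_eq_iff_eq_mul] at this
      exact this.symm
    simp only [Finset.sum_apply, Pi.smul_apply, smul_eq_mul]
    refine Finset.sum_congr rfl fun ψ _ => ?_
    by_cases h : m ψ = 0
    · simp [h]
    · rw [ψ.2.isCharacter.mem_charKer.1 (mem_charCenter_iff.1 (hh ψ ψ.2 (by rw [h5]; exact_mod_cast h)
        (show x' ∈ (P : Subgroup G).subgroupOf L from hx)) y')]
  have h5 : charDegree ψ ≤ charDegree χ := hL.charDegree_le_of_constituent h2 h3
  obtain ⟨h6, h7⟩ := ito_core (Q := Q.subgroupOf L) hne (P.2.comap_subtype) (hQ.comap_subtype)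
    (codisjoint_iff.1 (Subgroup.codisjoint_subgroupOf_sup _ _)) h2 (h5.trans_lt hd) h4
  have h8 : charDegree χ = charDegree ψ := by omega
  refine ⟨by omega, h8 ▸ h7, H05.Cfsg.IsIrrCharacter.of_restrict hχ L ?_⟩
  rw [hL.eq_of_constituent_of_degree_eq h2 h3 (by rw [← h2.charDegree_eq, ← h8, hχ.charDegree_eq]; rfl)]
  exact h2

theorem le_pCoreOf_of_normal [Finite G] {p : ℕ} [Fact p.Prime] {K A : Subgroup G}
    (h : ∀ Q : Sylow p K, (Q : Subgroup K).Normal) (hA : IsPGroup p A) (hAK : A ≤ K) : A ≤ pCoreOf p K := by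
  obtain ⟨Q, hQ⟩ := (hA.comap_subtype (K := K)).exists_le_sylow
  haveI := h Q
  rw [H02.pCoreOf_eq, H02.pCore_eq_of_normal_sylow Q]
  exact fun x hx => ⟨⟨x, hAK hx⟩, hQ hx, rfl⟩

theorem feit_thompson_lin {n p : ℕ} [hp : Fact p.Prime] (m : ℕ) : ∀ (G : Type*) [Group G] [Finite G] (χ : G → ℂ),
    IsCharacter G χ → (∀ g, χ g = χ 1 → g = 1) → charDegree χ = n → Nat.card G = m →
    ((n + 1) ^ 2 ≤ p ∨ (n + 1 < p ∧ ∀ K : Subgroup G, ¬ p ^ 2 ∣ Nat.card K → ∀ Q : Sylow p K,
      (Q : Subgroup K).Normal)) → ∀ P : Sylow p G, (P : Subgroup G).Normal := by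
  induction m using Nat.strong_induction_on with | _ m ih => ?_
  intro G _ _ χ hχ hf hd hm h P
  classical
  letI := Fintype.ofFinite G
  by_contra hP
  have hnp : n + 1 < p := h.elim (fun h => by
    have := hp.out.two_le
    rcases n with _ | n
    · omega
    · nlinarith) And.left
  have hK : ∀ K : Subgroup G, K ≠ ⊤ → ∀ Q : Sylow p K, (Q : Subgroup K).Normal := fun K hK =>
    ih _ (hm ▸ lt_of_le_of_ne K.card_le_card_group fun e => hK (K.eq_top_of_card_eq e)) K _ (hχ.restrict K)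
      (fun g hg => Subtype.ext (hf g hg)) hd rfl (h.imp_right fun h => ⟨h.1, fun L hL Q => by
        have e := L.equivMapOfInjective K.subtype K.subtype_injective
        have := h.2 (L.map K.subtype) (by rwa [← Nat.card_congr e.toEquiv]) (Q.mapSurjective (f := e.toMonoidHom) e.surjective)
        have h1 := this.comap e.toMonoidHom
        exact Subgroup.comap_map_eq_self_of_injective (f := e.toMonoidHom) e.injective (Q : Subgroup L) ▸ h1⟩)
  have hab : ∀ A : Subgroup G, IsPGroup p A → ∀ x ∈ A, ∀ y ∈ A, x * y = y * x := fun A hA => by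
    obtain ⟨a, ha⟩ := IsPGroup.iff_card.1 hA
    refine comm_of_piNum hχ hf A fun r hr h => ?_
    rw [(Nat.prime_dvd_prime_iff_eq hr hp.out).1 (hr.dvd_of_dvd_pow (ha ▸ h))]
    omega
  have hM : ∀ M : Subgroup G, M.Normal → (P : Subgroup G) ≤ M → M = ⊤ := fun M _ hM => by
    by_contra h1
    refine hP ?_
    rw [le_antisymm ((le_pCoreOf_of_normal (hK M h1) P.2 hM).trans (H02.pCoreOf_le_pCore M)) (H02.pCore_le_sylow P)]
    infer_instance
  have hperf : commutator G = ⊤ := by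
    by_contra h1
    obtain ⟨Q⟩ : Nonempty (Sylow p (commutator G)) := inferInstance
    haveI := hK _ h1 Q
    have h2 : IsPSolvable p (commutator G) := H24.PS.ext (Q : Subgroup (commutator G)) (H24.PS.of_pgroup Q.2)
      (H24.PS.of_coprime (Nat.coprime_comm.1 ((Nat.Prime.coprime_iff_not_dvd hp.out).2 Q.not_dvd_index)))
    have h3 : IsPSolvable p (G ⧸ commutator G) := H24.PS.of_solvable (G := Abelianization G)
    have := (ito_small hχ hf (H24.PS.ext _ h2 h3) (by omega) P hP).1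
    omega
  have hZ : ∀ R : Sylow p G, (R : Subgroup G) ⊓ Subgroup.center G = ⊥ := fun R => by
    have := H03.hall_abelian_inf_commutator_inf_center (R : Subgroup G)
      ⟨⟨fun a b => Subtype.ext (hab _ R.2 _ a.2 _ b.2)⟩⟩ R.card_coprime_index
    rwa [hperf, inf_top_eq] at this
  have hC : ∀ {g : G}, g ∉ Subgroup.center G → ∀ A : Subgroup G, IsPGroup p A →
      A ≤ Subgroup.centralizer {g} → A ≤ pCoreOf p (Subgroup.centralizer {g}) := fun {g} hg A =>
    le_pCoreOf_of_normal (hK _ fun e => hg (Subgroup.mem_center_iff.2 fun x =>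
      Subgroup.mem_centralizer_singleton_iff.1 (e ▸ Subgroup.mem_top x)))
  have hS : ∀ (R : Sylow p G) (x : G), x ∈ (R : Subgroup G) → x ≠ 1 →
      x ∉ Subgroup.center G ∧ pCoreOf p (Subgroup.centralizer {x}) = R := fun R x hx h1 => by
    have h2 : x ∉ Subgroup.center G := fun h => h1 (Subgroup.mem_bot.1 (hZ R ▸ Subgroup.mem_inf.2 ⟨hx, h⟩))
    exact ⟨h2, R.is_maximal' (H02.pCoreOf_isPGroup _) (hC h2 _ R.2 fun y hy =>
      Subgroup.mem_centralizer_singleton_iff.2 (hab _ R.2 _ hy _ hx))⟩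
  haveI : Nontrivial G := by
    by_contra h1
    haveI := not_nontrivial_iff_subsingleton.1 h1
    exact hP (Subsingleton.elim (P : Subgroup G) ⊥ ▸ inferInstance)
  obtain ⟨ψ, h1, h2, h3⟩ : ∃ ψ, IsIrrCharacter G ψ ∧ classInner χ ψ ≠ 0 ∧ ψ 1 ≠ 1 := by
    by_contra hh
    push Not at hh
    obtain ⟨g, hg⟩ := exists_ne (1 : G)
    exact hg (hf g (hχ.mem_charKer.1 (commutator_le_charKer_of_linear_constituents hχ hh
      (hperf ▸ Subgroup.mem_top g))))
  have h4 := ftb_b (P : Subgroup G) (hab _ P.2) (hZ P) (fun g hg a b ha hb => by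
    obtain ⟨⟨x, hx⟩, hx1⟩ := Subgroup.ne_bot_iff_exists_ne_one.1 ha
    obtain ⟨⟨y, hy⟩, hy1⟩ := Subgroup.ne_bot_iff_exists_ne_one.1 hb
    have hx1 : x ≠ 1 := fun e => hx1 (Subtype.ext e)
    have hy1 : y ≠ 1 := fun e => hy1 (Subtype.ext e)
    have hxy := hab _ (H02.pCoreOf_isPGroup _) x (hC hg _ ((a • P).2.to_inf_right) inf_le_left hx) y
      (hC hg _ ((b • P).2.to_inf_right) inf_le_left hy)
    have hxa := hS (a • P) x hx.2 hx1
    have hya : y ∈ ((a • P : Sylow p G) : Subgroup G) := hxa.2 ▸ hC hxa.1 _ ((b • P).2.to_inf_right)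
      inf_le_left (Subgroup.mem_inf.2 ⟨Subgroup.mem_centralizer_singleton_iff.2 hxy.symm, hy.2⟩)
    exact (hS (a • P) y hya hy1).2.symm.trans (hS (b • P) y hy.2 hy1).2) h1 h3 hM
  have h5 := hχ.charDegree_le_of_constituent h1 h2
  rw [h1.isCharacter.re_apply_one] at h4
  have h6 : Nat.card P < (n + 1) ^ 2 := by
    have : Nat.card P < (1 + charDegree ψ) ^ 2 := by exact_mod_cast h4
    exact this.trans_le (Nat.pow_le_pow_left (by omega) 2)
  rcases h with h | h
  · obtain ⟨a, ha⟩ := IsPGroup.iff_card.1 P.2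
    rcases a with _ | a
    · exact hP (Subgroup.card_eq_one.1 ha ▸ inferInstance)
    · have := Nat.le_of_dvd Nat.card_pos (ha ▸ dvd_pow_self p a.succ_ne_zero : p ∣ Nat.card P)
      omega
  · by_cases h7 : p ^ 2 ∣ Nat.card G
    · have := Nat.le_of_dvd Nat.card_pos (P.pow_dvd_card_of_pow_dvd_card h7)
      nlinarith
    · refine hP ?_
      rw [le_antisymm ((le_pCoreOf_of_normal (h.2 ⊤ (by rwa [Subgroup.card_top])) P.2 le_top).trans
        (H02.pCoreOf_le_pCore ⊤)) (H02.pCore_le_sylow P)]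
      infer_instance

end H07
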