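import Cfsg.Agent.H06.J0

/-! The abstract half of part `H` of S5566. -/

set_option autoImplicit false
open Subgroup

namespace H07.JH
open Cfsg.Agent.H06.J

variable {S : Type*} [Group S] [Finite S] [IsSimpleGroup S]

theorem idx (cS : Nat.card S = 360) (J : Subgroup S) (h : J.index ≤ 5) : J = ⊤ := by
  rcases J.normalCore_normal.eq_bot_or_eq_top with e | e
  · have := card_dvd_of_injective _ ((MonoidHom.ker_eq_bot_iff _).1 (J.normalCore_eq_ker ▸ e))
    rw [Nat.card_perm, ← index_eq_card, cS] at this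
    have := Nat.le_of_dvd (Nat.factorial_pos _) this
    have := Nat.factorial_le h
    simp only [Nat.factorial] at this
    omega
  · exact top_le_iff.1 (e ▸ J.normalCore_le)

omit [IsSimpleGroup S] in
theorem e4 (cS : Nat.card S = 360) (g4 : ∃ g : S, g ^ 4 = 1 ∧ g ^ 2 ≠ 1) (E : Subgroup S) (h : ∀ g ∈ E, g * g = 1) :
    Nat.card E ≤ 4 := by
  haveI : Fact (Nat.Prime 2) := ⟨Nat.prime_two⟩
  have p : IsPGroup 2 E := fun g => ⟨1, Subtype.ext (by simpa [pow_two] using h g g.2)⟩
  obtain ⟨P, hP⟩ := p.exists_le_sylow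
  obtain ⟨g, a, b⟩ := g4
  have q : IsPGroup 2 (zpowers g) := fun ⟨x, n, e⟩ => ⟨2, Subtype.ext (by
    have : (g ^ n) ^ 4 = 1 := by rw [← zpow_natCast, ← zpow_mul, mul_comm, zpow_mul, zpow_natCast, a, one_zpow]
    simpa [← e] using this)⟩
  obtain ⟨Q, hQ⟩ := q.exists_le_sylow
  obtain ⟨c, hc⟩ := MulAction.exists_smul_eq S Q P
  have m : c * g * c⁻¹ ∈ (P : Subgroup S) := by
    rw [← hc, Sylow.coe_subgroup_smul]
    exact smul_mem_pointwise_smul _ _ _ (hQ (mem_zpowers g))
  have cP : Nat.card P = 8 := by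
    rw [P.card_eq_multiplicity, cS, show 360 = 2 ^ 3 * 45 by norm_num, Nat.factorization_mul (by norm_num) (by norm_num),
      Nat.Prime.factorization_pow Nat.prime_two]
    simp [Nat.factorization_eq_zero_of_not_dvd]
  have d := card_dvd_of_le hP
  rw [cP] at d
  have l := Nat.le_of_dvd (by decide) d
  by_contra n
  have : Nat.card E = 8 := by
    generalize Nat.card E = k at *
    have : 5 ≤ k := by omega
    interval_cases k <;> first | rfl | omega
  have e : E = P := eq_of_le_of_card_ge hP (by omega)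
  have := h _ (e ▸ m)
  rw [conj_mul, conj_eq_one_iff] at this
  exact b (by rw [pow_two, this])

theorem ab {Γ : Type*} [Group Γ] [Finite Γ] (cS : Nat.card S = 360) (g4 : ∃ g : S, g ^ 4 = 1 ∧ g ^ 2 ≠ 1)
    {K Y : Subgroup Γ} (φ : K →* S) (su : Function.Surjective φ) (ker : ∀ k, φ k = 1 ↔ k.1 ∈ Y) (YK : Y ≤ K)
    (cY : Nat.card Y = 16) (Y2 : ∀ y ∈ Y, y * y = 1) (cen : ∀ k ∈ K, (∀ y ∈ Y, k * y = y * k) → k ∈ Y) : Hx 1 K Y := by
  have kr : φ.ker = Y.subgroupOf K := by ext k; exact ker k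
  have ck : Nat.card φ.ker = 16 := by rw [kr, Nat.card_congr (subgroupOfEquivOfLe YK).toEquiv, cY]
  have nY : ∀ k ∈ K, ∀ y ∈ Y, k * y * k⁻¹ ∈ Y := fun k a y b =>
    (ker _).1 (φ.normal_ker.conj_mem ⟨y, YK b⟩ ((ker _).2 b) ⟨k, a⟩)
  have top : ∀ J : Subgroup Γ, Y ≤ J → (J.subgroupOf K).map φ = ⊤ → K ≤ J := fun J a e k b => by
    have := comap_map_eq φ (J.subgroupOf K)
    rw [e, comap_top, sup_eq_left.2 (kr ▸ subgroupOf_mono _ a)] at this
    exact this.le (mem_top (⟨k, b⟩ : K))
  have s1 : ∀ J : Subgroup Γ, Y ≤ J → J.relIndex K ≤ 5 → K ≤ J := fun J a i => top J a (idx cS _ (by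
    rwa [index_map_eq _ su (kr ▸ subgroupOf_mono _ a)]))
  have cK : Nat.card K = 5760 := by
    rw [← φ.ker.card_mul_index, ck, index_ker, MonoidHom.range_eq_top.2 su, card_top, cS]
  have cm : ∀ a ∈ Y, ∀ b ∈ Y, a * b = b * a := fun a x b y => by
    rw [← inv_eq_of_mul_eq_one_right (Y2 _ (mul_mem x y)), mul_inv_rev, inv_eq_of_mul_eq_one_right (Y2 _ x),
      inv_eq_of_mul_eq_one_right (Y2 _ y)]
  have f5 : ∀ f : K, orderOf f = 5 → ∀ y ∈ Y, f.1 * y = y * f.1 → y = 1 := fun f o y hy c => by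
    haveI : Fact (Nat.Prime 5) := ⟨by decide⟩
    letI : MulAction (zpowers f) φ.ker := MulAction.compHom _ ((MulAut.conjNormal (H := φ.ker)).comp (zpowers f).subtype)
    have m := (IsPGroup.of_card (p := 5) (G := zpowers f) (n := 1) (by rw [Nat.card_zpowers, o, pow_one])).card_modEq_card_fixedPoints φ.ker
    have e : MulAction.fixedPoints (zpowers f) φ.ker = ((centralizer {f}).subgroupOf φ.ker : Set φ.ker) := by
      ext x
      refine ⟨fun h => mem_subgroupOf.2 (mem_centralizer_singleton_iff.2 ?_), fun h g => Subtype.ext ?_⟩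
      · exact (mul_inv_eq_iff_eq_mul.1 (congrArg Subtype.val (h ⟨f, mem_zpowers f⟩))).symm
      · obtain ⟨g, n, rfl⟩ := g
        exact mul_inv_eq_iff_eq_mul.2 ((show Commute x.1 f from mem_centralizer_singleton_iff.1 (mem_subgroupOf.1 h)).zpow_right n).symm.eq
    rw [e, ck, SetLike.coe_sort_coe] at m
    have d := card_subgroup_dvd_card ((centralizer {f}).subgroupOf φ.ker)
    rw [ck] at d
    have : Nat.card ((centralizer {f}).subgroupOf φ.ker) = 1 ∨ Nat.card ((centralizer {f}).subgroupOf φ.ker) = 16 := by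
      generalize Nat.card ((centralizer {f}).subgroupOf φ.ker) = k at *
      have := Nat.le_of_dvd (by decide) d
      interval_cases k <;> simp_all [Nat.ModEq]
    rcases this with h | h
    · have : (⟨⟨y, YK hy⟩, (ker _).2 hy⟩ : φ.ker) ∈ (centralizer {f}).subgroupOf φ.ker :=
        mem_subgroupOf.2 (mem_centralizer_singleton_iff.2 (Subtype.ext c.symm))
      rw [card_eq_one.1 h, mem_bot] at this
      exact congrArg (fun x : φ.ker => x.1.1) this
    · have t := eq_top_of_card_eq _ (h.trans ck.symm)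
      have fY := cen f f.2 fun y hy => (congrArg Subtype.val (mem_centralizer_singleton_iff.1
        (mem_subgroupOf.1 (t.ge (mem_top (⟨⟨y, YK hy⟩, (ker _).2 hy⟩ : φ.ker)))))).symm
      have := orderOf_dvd_of_pow_eq_one (show f ^ 2 = 1 from Subtype.ext (by simpa [pow_two] using Y2 _ fY))
      rw [o] at this
      omega
  refine ⟨one_mem _, YK, cY, Y2, nY, fun y a y' b n n' => ?_, fun J _ a _ i => s1 J a i, fun N l a _ n => ?_, fun E l e => ?_⟩
  · letI : MulAction K Γ := MulAction.compHom _ ((MulAut.conj (G := Γ)).comp K.subtype)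
    have big : ∀ y ∈ Y, y ≠ 1 → 10 ≤ (MulAction.orbit K y).ncard := fun y a n => by
      have st : MulAction.stabilizer K y = (centralizer {y}).subgroupOf K := by
        ext k
        exact mul_inv_eq_iff_eq_mul.trans (mem_centralizer_singleton_iff (g := y) (k := k.1)).symm
      have n5 : ¬ 5 ∣ Nat.card (MulAction.stabilizer K y) := fun d => by
        haveI : Fact (Nat.Prime 5) := ⟨by decide⟩
        obtain ⟨f, o⟩ := exists_prime_orderOf_dvd_card' 5 d
        exact n (f5 f.1 ((orderOf_coe f).trans o) y a (mul_inv_eq_iff_eq_mul.1 f.2))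
      have c := (MulAction.stabilizer K y).card_mul_index
      have d5 := ((Nat.Prime.dvd_mul (by decide : Nat.Prime 5)).1 (c ▸ cK ▸ (by decide : 5 ∣ 5760))).resolve_left n5
      have g5 : ¬ (MulAction.stabilizer K y).index ≤ 5 := fun i => n5 (by
        have := s1 (centralizer {y}) (fun x hx => mem_centralizer_singleton_iff.2 (cm x hx y a)) (by rw [st] at i; exact i)
        rw [st, subgroupOf_eq_top.2 this, card_top, cK]
        decide)
      rw [← MulAction.index_stabilizer]
      omega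
    have sub : ∀ y ∈ Y, y ≠ 1 → MulAction.orbit K y ⊆ (Y : Set Γ) \ {1} := by
      rintro y a n _ ⟨k, rfl⟩
      exact ⟨nY k k.2 y a, fun e => n (by simpa using (show k.1 * y * k.1⁻¹ = 1 from e))⟩
    by_contra h
    have dj : Disjoint (MulAction.orbit K y) (MulAction.orbit K y') := (MulAction.orbit.eq_or_disjoint y y').resolve_left fun e => by
      obtain ⟨k, hk⟩ := e.ge (MulAction.mem_orbit_self y')
      exact h ⟨k, k.2, hk⟩
    have := Set.ncard_le_ncard (Set.union_subset (sub y a n) (sub y' b n'))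
    rw [Set.ncard_union_eq dj, Set.ncard_sdiff_singleton_of_mem (one_mem Y), show (Y : Set Γ).ncard = 16 from cY] at this
    have := big y a n
    have := big y' b n'
    omega
  · have nn : (N.subgroupOf K).Normal := ⟨fun x hx k => n k k.2 x hx⟩
    rcases (nn.map φ su).eq_bot_or_eq_top with e | e
    · exact .inr fun g hg _ => (ker ⟨g, l hg⟩).1 (mem_bot.1 (e.le (mem_map_of_mem φ (show (⟨g, l hg⟩ : K) ∈ N.subgroupOf K from hg))))
    · exact .inl (top N a e)
  · let ψ : E →* S := φ.comp (inclusion l)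
    have c := ψ.ker.card_mul_index
    have k : ψ.ker = (E ⊓ Y).subgroupOf E := by
      ext x
      exact (ker _).trans ⟨fun h => ⟨x.2, h⟩, fun h => h.2⟩
    have r := e4 cS g4 ψ.range (by
      rintro _ ⟨x, rfl⟩
      rw [← map_mul, show x * x = 1 from Subtype.ext (e x x.2), map_one])
    rw [index_ker, k, Nat.card_congr (subgroupOfEquivOfLe inf_le_left).toEquiv] at c
    rw [← c, mul_comm]
    exact Nat.mul_le_mul_right _ r

theorem hx {Γ : Type*} [Group Γ] [Finite Γ] {K Y : Subgroup Γ} {α : Type*} [Fintype α] [DecidableEq α] (hα : Fintype.card α = 6)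
    (φ : K →* alternatingGroup α) (su : Function.Surjective φ) (ker : ∀ k : K, φ k = 1 ↔ (k : Γ) ∈ Y) (YK : Y ≤ K)
    (cY : Nat.card Y = 16) (Y2 : ∀ y ∈ Y, y * y = 1) (cen : ∀ k ∈ K, (∀ y ∈ Y, k * y = y * k) → k ∈ Y) : Hx 1 K Y := by
  have e := (Fintype.equivFinOfCardEq hα).altCongrHom
  haveI : IsSimpleGroup (alternatingGroup (Fin 6)) := alternatingGroup.isSimpleGroup (by simp)
  refine ab (S := alternatingGroup (Fin 6)) ?_
    ⟨⟨Equiv.swap 0 1 * Equiv.swap 1 2 * Equiv.swap 2 3 * Equiv.swap 4 5, Equiv.Perm.mem_alternatingGroup.2 (by decide)⟩,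
      Subtype.ext (by decide), fun h => absurd (congrArg Subtype.val h) (by decide)⟩
    (e.toMonoidHom.comp φ) (e.surjective.comp su) (fun k => e.map_eq_one_iff.trans (ker k)) YK cY Y2 cen
  rw [nat_card_alternatingGroup]
  simp [Nat.factorial]

end H07.JH
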