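import Cfsg.Agent.H23.K0

/-! Part `N` of S5567. -/

set_option autoImplicit false
open Subgroup

namespace H07.KN
open Cfsg.Agent.H23.K
universe u
variable {G : Type u} [Group G] [Finite G]

theorem orb (M : Subgroup G) (z : G) :
    Nat.card (M ⊓ centralizer {z} : Subgroup G) * {x | ∃ m ∈ M, m * z * m⁻¹ = x}.ncard = Nat.card M := by
  letI : MulAction M G := MulAction.compHom _ ((MulAut.conj (G := G)).comp M.subtype)
  have st : MulAction.stabilizer M z = (M ⊓ centralizer {z}).subgroupOf M := by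
    ext k
    exact (mul_inv_eq_iff_eq_mul.trans (mem_centralizer_singleton_iff (g := z) (k := k.1)).symm).trans ⟨fun h => ⟨k.2, h⟩, fun h => h.2⟩
  have o : MulAction.orbit M z = {x | ∃ m ∈ M, m * z * m⁻¹ = x} := by
    ext x
    exact ⟨fun ⟨k, h⟩ => ⟨k, k.2, h⟩, fun ⟨k, a, h⟩ => ⟨⟨k, a⟩, h⟩⟩
  rw [← o, ← MulAction.index_stabilizer, ← (MulAction.stabilizer M z).card_mul_index, st,
    Nat.card_congr (subgroupOfEquivOfLe inf_le_left).toEquiv]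

theorem pr {A N : Subgroup G} (sq : ∀ x ∈ A, x * x = 1) (cA : Nat.card A = 2048) (nM : ∀ m ∈ N, ∀ x ∈ A, m * x * m⁻¹ ∈ A)
    (cen : ∀ m ∈ N, (∀ x ∈ A, m * x = x * m) → m ∈ A) {p : ℕ} (hp : p.Prime) (d : p ∣ Nat.card N) :
    p = 2 ∨ ∃ j < 11, 2048 % p = 2 ^ j % p := by
  haveI : Fact p.Prime := ⟨hp⟩
  obtain ⟨f, o⟩ := exists_prime_orderOf_dvd_card' p d
  have nz : ∀ g ∈ zpowers f, ∀ x ∈ A, g.1 * x * g.1⁻¹ ∈ A := fun g _ => nM g g.2
  letI : MulAction (zpowers f) A :=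
    { smul := fun g x => ⟨g.1.1 * x * g.1.1⁻¹, nM _ g.1.2 x x.2⟩
      one_smul := fun x => Subtype.ext (show (1 : G) * x * 1⁻¹ = x by simp)
      mul_smul := fun g k x => Subtype.ext (show g.1.1 * k.1.1 * x * (g.1.1 * k.1.1)⁻¹ = g.1.1 * (k.1.1 * x * k.1.1⁻¹) * g.1.1⁻¹ by group) }
  have m := (IsPGroup.of_card (p := p) (G := zpowers f) (n := 1) (by rw [Nat.card_zpowers, o, pow_one])).card_modEq_card_fixedPoints A
  have e : MulAction.fixedPoints (zpowers f) A = ((centralizer {f.1}).subgroupOf A : Set A) := by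
    ext x
    refine ⟨fun h => mem_subgroupOf.2 (mem_centralizer_singleton_iff.2 ?_), fun h g => Subtype.ext ?_⟩
    · exact (mul_inv_eq_iff_eq_mul.1 (congrArg Subtype.val (h ⟨f, mem_zpowers f⟩))).symm
    · obtain ⟨g, n, rfl⟩ := g
      exact mul_inv_eq_iff_eq_mul.2 ((show Commute x.1 f.1 from mem_centralizer_singleton_iff.1 (mem_subgroupOf.1 h)).zpow_right n).symm.eq
  rw [e, cA, SetLike.coe_sort_coe] at m
  have d := card_subgroup_dvd_card ((centralizer {f.1}).subgroupOf A)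
  rw [cA, show 2048 = 2 ^ 11 by norm_num, Nat.dvd_prime_pow Nat.prime_two] at d
  obtain ⟨j, l, hj⟩ := d
  rcases l.lt_or_eq with l | rfl
  · exact .inr ⟨j, l, hj ▸ m⟩
  · have t := eq_top_of_card_eq _ (hj.trans cA.symm)
    have fA := cen f f.2 fun y hy => (mem_centralizer_singleton_iff.1 (mem_subgroupOf.1 (t.ge (mem_top (⟨y, hy⟩ : A))))).symm
    have := orderOf_dvd_of_pow_eq_one (show f ^ 2 = 1 from Subtype.ext (by simpa [pow_two] using sq _ fA))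
    exact .inl ((Nat.prime_dvd_prime_iff_eq hp Nat.prime_two).1 (o ▸ this))

omit [Group G] in
theorem dj {S T U : Set G} (h : ∀ x, x ∈ U ↔ x ∈ S ∨ x ∈ T) (c : U.ncard = S.ncard + T.ncard) : ∀ x ∈ S, x ∉ T := fun x a b => by
  have := Set.ncard_union_add_ncard_inter S T
  rw [← show U = S ∪ T from Set.ext h, c, Nat.add_eq_left, Set.ncard_eq_zero] at this
  exact (this.le ⟨a, b⟩ :)

omit [Group G] [Finite G] in
theorem alt {Z S : Set G} (h : ∀ x ∈ S, ∀ y ∈ S, x ∈ Z → y ∈ Z) : (S ⊆ Z ∧ (Z ∩ S).ncard = S.ncard) ∨ ((∀ x ∈ S, x ∉ Z) ∧ (Z ∩ S).ncard = 0) := by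
  by_cases e : ∃ x ∈ S, x ∈ Z
  · obtain ⟨x, a, b⟩ := e
    have : S ⊆ Z := fun y c => h x a y c b
    exact .inl ⟨this, by rw [Set.inter_eq_right.2 this]⟩
  · refine .inr ⟨fun x a b => e ⟨x, a, b⟩, ?_⟩
    rw [Set.eq_empty_of_forall_notMem fun x (a : x ∈ Z ∩ S) => e ⟨x, a.2, a.1⟩, Set.ncard_empty]

theorem pl {a b c d e f : Prop} (h : ¬ (a ↔ ¬ b)) (i : ((a ↔ c) ∧ (b ↔ d)) ∨ ((a ↔ d) ∧ (b ↔ c)))
    (j : ((a ↔ e) ∧ (b ↔ f)) ∨ ((a ↔ f) ∧ (b ↔ e))) : c → e := by tauto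

set_option maxHeartbeats 1000000 in
theorem n : NStmt.{u} := fun {G _ _ A N B z O1 O2 E F} h hn => by
  classical
  set Z : Set G := {x | ∃ m ∈ N, m * z * m⁻¹ = x} with hZ
  have cZ := orb N z
  rw [h.cN, ← hZ] at cZ
  have Zc : ∀ m ∈ N, ∀ x ∈ Z, m * x * m⁻¹ ∈ Z := by
    rintro m a _ ⟨k, b, rfl⟩; exact ⟨m * k, mul_mem a b, by group⟩
  have Zc' : ∀ m ∈ N, ∀ x, m * x * m⁻¹ ∈ Z → x ∈ Z := fun m a x b => by simpa [mul_assoc] using Zc _ (inv_mem a) _ b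
  have zZ : z ∈ Z := ⟨1, one_mem _, by simp⟩
  have zA := h.BA h.zB
  have z2 := h.sq z zA
  have ZA : ∀ x ∈ Z, x ∈ A ∧ x ≠ 1 := by
    rintro _ ⟨k, b, rfl⟩; exact ⟨h.nM k b z zA, fun e => h.z1 (conj_eq_one_iff.1 e)⟩
  have cm : ∀ a ∈ A, ∀ b ∈ A, a * b = b * a := fun a x b y => by
    rw [← inv_eq_of_mul_eq_one_right (h.sq _ (mul_mem x y)), mul_inv_rev, inv_eq_of_mul_eq_one_right (h.sq _ x),
      inv_eq_of_mul_eq_one_right (h.sq _ y)]
  have d12 : ∀ x ∈ O1, x ∉ O2 := dj (U := (B : Set G) \ {1, z}) (fun x => by rw [← h.pB]; simp [not_or]) (by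
    rw [Set.ncard_sdiff (by rintro _ (rfl | rfl); exacts [one_mem B, h.zB]), Set.ncard_pair h.z1.symm,
      show (B : Set G).ncard = 128 from h.cB, h.c1, h.c2])
  have dEF : ∀ x ∈ E, x ∉ F := dj (U := (A : Set G) \ B) (fun x => h.pA x) (by
    rw [Set.ncard_sdiff h.BA, show (B : Set G).ncard = 128 from h.cB, show (A : Set G).ncard = 2048 from h.cA, h.cE, h.cF])
  have o1 := fun x a => (h.pB x).2 (.inl a)
  have o2 := fun x a => (h.pB x).2 (.inr a)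
  have oE := fun x a => (h.pA x).2 (.inl a)
  have oF := fun x a => (h.pA x).2 (.inr a)
  have sum : Z.ncard = 1 + (Z ∩ O1).ncard + (Z ∩ O2).ncard + (Z ∩ E).ncard + (Z ∩ F).ncard := by
    rw [← Set.ncard_singleton z, ← Set.ncard_union_eq, ← Set.ncard_union_eq, ← Set.ncard_union_eq, ← Set.ncard_union_eq]
    · congr 1
      ext x
      simp only [Set.mem_union, Set.mem_inter_iff, Set.mem_singleton_iff]
      refine ⟨fun a => ?_, by rintro ((((rfl | a) | a) | a) | a); exacts [zZ, a.1, a.1, a.1, a.1]⟩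
      by_cases b : x ∈ B
      · by_cases e : x = z
        · exact .inl (.inl (.inl (.inl e)))
        · rcases (h.pB x).1 ⟨b, (ZA x a).2, e⟩ with c | c
          exacts [.inl (.inl (.inl (.inr ⟨a, c⟩))), .inl (.inl (.inr ⟨a, c⟩))]
      · rcases (h.pA x).1 ⟨(ZA x a).1, b⟩ with c | c
        exacts [.inl (.inr ⟨a, c⟩), .inr ⟨a, c⟩]
    · refine Set.disjoint_left.2 ?_
      rintro x (((rfl | a) | a) | a) b
      exacts [(oF _ b.2).2 h.zB, (oF _ b.2).2 (o1 _ a.2).1, (oF _ b.2).2 (o2 _ a.2).1, dEF _ a.2 b.2]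
    · refine Set.disjoint_left.2 ?_
      rintro x ((rfl | a) | a) b
      exacts [(oE _ b.2).2 h.zB, (oE _ b.2).2 (o1 _ a.2).1, (oE _ b.2).2 (o2 _ a.2).1]
    · refine Set.disjoint_left.2 ?_
      rintro x (rfl | a) b
      exacts [(o2 _ b.2).2.2 rfl, d12 _ a.2 b.2]
    · refine Set.disjoint_left.2 ?_
      rintro x rfl b
      exact (o1 _ b.2).2.2 rfl
  have a1 := alt (Z := Z) fun x a y b c => by obtain ⟨m, k, -, e⟩ := h.t1 x a y b; exact e ▸ Zc m k x c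
  have a2 := alt (Z := Z) fun x a y b c => by obtain ⟨m, k, -, e⟩ := h.t2 x a y b; exact e ▸ Zc m k x c
  have aF := alt (Z := Z) fun x a y b c => by obtain ⟨m, k, -, e⟩ := h.tF x a y b; exact e ▸ Zc m k x c
  have zz : ∀ x : G, x * z * z = x := fun x => by rw [mul_assoc, z2, mul_one]
  have mv : ∀ x ∈ E, ∀ y ∈ E, ((x ∈ Z ↔ y ∈ Z) ∧ (x * z ∈ Z ↔ y * z ∈ Z)) ∨ ((x ∈ Z ↔ y * z ∈ Z) ∧ (x * z ∈ Z ↔ y ∈ Z)) := fun x a y b => by
    obtain ⟨m, k, ez, e | e⟩ := h.tE x a y b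
    · have e' : m * (x * z) * m⁻¹ = y * z := by rw [← conj_mul, e, ez]
      exact .inl ⟨⟨fun c => e ▸ Zc m k _ c, fun c => Zc' m k _ (e ▸ c)⟩, fun c => e' ▸ Zc m k _ c, fun c => Zc' m k _ (e' ▸ c)⟩
    · have e' : m * (x * z) * m⁻¹ = y := by rw [← conj_mul, e, ez, zz]
      exact .inr ⟨⟨fun c => e ▸ Zc m k _ c, fun c => Zc' m k _ (e ▸ c)⟩, fun c => e' ▸ Zc m k _ c, fun c => Zc' m k _ (e' ▸ c)⟩
  have aE : (Z ∩ E).ncard = 480 ∨ ((∀ x ∈ E, x ∉ Z) ∧ (Z ∩ E).ncard = 0) ∨ ((∀ x ∈ E, (x ∈ Z ↔ x * z ∉ Z)) ∧ (Z ∩ E).ncard = 240) := by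
    by_cases e : ∀ x ∈ E, (x ∈ Z ↔ x * z ∉ Z)
    · refine .inr (.inr ⟨e, ?_⟩)
      have c := Set.ncard_inter_add_ncard_sdiff_eq_ncard E Z
      have i : (· * z) '' (E ∩ Z) = E \ Z := by
        ext y
        refine ⟨?_, fun a => ⟨y * z, ⟨h.zE y a.1, by_contra fun b => a.2 ((e y a.1).2 b)⟩, zz y⟩⟩
        rintro ⟨x, a, rfl⟩
        exact ⟨h.zE x a.1, (e x a.1).1 a.2⟩
      rw [← i, Set.ncard_image_of_injective _ (mul_left_injective z), h.cE, Set.inter_comm] at c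
      omega
    · obtain ⟨x, e⟩ := not_forall.1 e
      obtain ⟨a, e⟩ := Classical.not_imp.1 e
      have : ∀ y ∈ E, ∀ w ∈ E, y ∈ Z → w ∈ Z := fun y b w c => pl e (mv x a y b) (mv x a w c)
      rcases alt this with k | k
      exacts [.inl (k.2.trans h.cE), .inr (.inl k)]
  have dv : Z.ncard ∣ Nat.card N := Dvd.intro_left _ cZ
  have bad : ∀ p : ℕ, p.Prime → p ∣ Z.ncard → p = 2 ∨ ∃ j < 11, 2048 % p = 2 ^ j % p := fun p a b =>
    pr h.sq h.cA h.nM h.cen a (b.trans dv)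
  have n1 : Z.ncard ≠ 1 := fun e => by
    obtain ⟨m, a, b⟩ := h.fu
    obtain ⟨x, e⟩ := Set.ncard_eq_one.1 e
    exact b ((e.le (Zc m a z zZ)).trans (e.le zZ).symm)
  have n2 : Z.ncard ≠ 2047 := fun e => hn (by rw [← cZ, e, mul_comm])
  have nb : ∀ k ∈ [37, 13, 241, 277, 331, 367, 47, 571, 607, 131, 211, 1531, 1567, 41, 101, 113, 19, 2011], ¬ k ∣ Z.ncard := fun k a b => by
    have : k.Prime ∧ ¬ (k = 2 ∨ ∃ j < 11, 2048 % k = 2 ^ j % k) := by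
      simp only [List.mem_cons, List.not_mem_nil, or_false] at a
      rcases a with rfl | rfl | rfl | rfl | rfl | rfl | rfl | rfl | rfl | rfl | rfl | rfl | rfl | rfl | rfl | rfl | rfl | rfl <;>
        exact ⟨by norm_num, by decide⟩
    exact this.2 (bad k this.1 b)
  have key : (∀ x ∈ O1, x ∉ Z) ∧ O2 ⊆ Z ∧ (∀ x ∈ E, (x ∈ Z ↔ x * z ∉ Z)) ∧ F ⊆ Z ∧ Z.ncard = 1771 := by
    rw [h.c1] at a1
    rw [h.c2] at a2
    rw [h.cF] at aF
    rcases a1 with ⟨p1, q1⟩ | ⟨p1, q1⟩ <;> rcases a2 with ⟨p2, q2⟩ | ⟨p2, q2⟩ <;> rcases aE with q3 | ⟨p3, q3⟩ | ⟨p3, q3⟩ <;>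
      rcases aF with ⟨p4, q4⟩ | ⟨p4, q4⟩ <;> rw [q1, q2, q3, q4] at sum <;>
      first
      | exact ⟨p1, p2, p3, p4, sum⟩
      | exact absurd sum n1
      | exact absurd sum n2
      | (rw [sum] at nb; exact absurd nb (by decide))
      | skip
    refine absurd (fun m a x b => ?_) h.nn
    by_cases e : x = 1
    · simpa [e] using one_mem B
    have : x ∈ Z := by
      by_cases e' : x = z
      · exact e' ▸ zZ
      · exact ((h.pB x).1 ⟨b, e, e'⟩).elim (fun c => p1 c) fun c => p2 c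
    have k := Zc m a x this
    exact by_contra fun c => ((h.pA _).1 ⟨(ZA _ k).1, c⟩).elim (fun d => p3 _ d k) fun d => p4 _ d k
  obtain ⟨p1, p2, p3, p4, c⟩ := key
  have Dc : ∀ m ∈ N, ∀ t ∈ DD A N z, m * t * m⁻¹ ∈ DD A N z := fun m a t b =>
    ⟨h.nM m a t b.1, fun e => b.2.1 (conj_eq_one_iff.1 e), fun e => b.2.2 (Zc' m a t e)⟩
  have D1 : ∀ t ∈ O1, t ∈ DD A N z := fun t a => ⟨h.BA (o1 t a).1, (o1 t a).2.1, p1 t a⟩
  have DB : ∀ t ∈ DD A N z, t ∈ B → t ∈ O1 := fun t a b =>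
    ((h.pB t).1 ⟨b, a.2.1, fun e => a.2.2 (show t ∈ Z from e ▸ zZ)⟩).resolve_right fun c => a.2.2 (p2 c)
  have DE : ∀ t ∈ DD A N z, t ∉ B → t ∈ E := fun t a b => ((h.pA t).1 ⟨a.1, b⟩).resolve_right fun c => a.2.2 (p4 c)
  have Bz : ∀ t ∈ DD A N z, t ∈ B → t * z ∈ DD A N z := fun t a b => by
    obtain ⟨m, k, -, e⟩ := h.Bz t b a.2.1 fun e => a.2.2 (show t ∈ Z from e ▸ zZ)
    exact e ▸ Dc m k t a
  obtain ⟨t0, ht⟩ := Set.nonempty_of_ncard_ne_zero (s := O1) (by rw [h.c1]; decide)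
  obtain ⟨x0, hx⟩ := Set.nonempty_of_ncard_ne_zero (s := O2) (by rw [h.c2]; decide)
  obtain ⟨f0, hf⟩ := Set.nonempty_of_ncard_ne_zero (s := F) (by rw [h.cF]; decide)
  obtain ⟨m0, k0, s0, l0, e0⟩ : ∃ m ∈ N, ∃ s ∈ O1, m * s * m⁻¹ ∉ B := by_contra fun e => by
    push Not at e
    obtain ⟨m, k, r⟩ := p4 hf
    refine (oF _ hf).2 ?_
    have := mul_mem (e m k t0 ht) (e m k _ (DB _ (Bz t0 (D1 t0 ht) (o1 t0 ht).1) (mul_mem (o1 t0 ht).1 h.zB)))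
    rwa [conj_mul, ← mul_assoc t0, h.sq t0 (D1 t0 ht).1, one_mul, r] at this
  have tr : ∀ t ∈ DD A N z, ∃ m ∈ N, m * s0 * m⁻¹ = t := fun t a => by
    by_cases b : t ∈ B
    · obtain ⟨m, k, -, e⟩ := h.t1 s0 l0 t (DB t a b)
      exact ⟨m, k, e⟩
    · have d := Dc m0 k0 s0 (D1 s0 l0)
      obtain ⟨m, k, -, e | e⟩ := h.tE _ (DE _ d e0) t (DE t a b)
      · exact ⟨m * m0, mul_mem k k0, by rw [← e]; group⟩
      · exact absurd ((p3 t (DE t a b)).2 (e ▸ (Dc m k _ d).2.2 :)) a.2.2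
  refine ⟨⟨h.sq, h.cA, h.AM, h.nM, h.cen, fun t a => ⟨a.1, a.2.1⟩, Dc, fun s a t b => ?_, fun x a b c => by_contra fun e => c ⟨a, b, e⟩,
    h.z1, fun a => a.2.2 zZ, h.zB, h.BA, h.cB, h.nB, Bz, ⟨t0, D1 t0 ht, (o1 t0 ht).1⟩,
    ⟨x0, (o2 _ hx).1, fun a => a.2.2 (p2 hx), (o2 _ hx).2⟩, h.cQ, fun s a b t c d => h.t1 s (DB s a b) t (DB t c d),
    fun x a b c d y a' b' c' d' => h.t2 x (((h.pB x).1 ⟨a, c, d⟩).resolve_left fun e => b (D1 x e)) y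
      (((h.pB y).1 ⟨a', c', d'⟩).resolve_left fun e => b' (D1 y e)), fun x a b y a' b' => ?_, by rw [h.cN]; decide,
    by rw [h.cN]; decide, fun t a b => ?_⟩, fun c a => ?_, by rw [← cZ, c, mul_comm]⟩
  · obtain ⟨m, k, rfl⟩ := tr s a
    obtain ⟨m', k', rfl⟩ := tr t b
    exact ⟨m' * m⁻¹, mul_mem k' (inv_mem k), by group⟩
  · obtain ⟨e, i, j⟩ := h.Eco x a b
    obtain ⟨e', i', j'⟩ := h.Eco y a' b'
    obtain ⟨m, k, ez, r⟩ := h.tE e i e' i'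
    have w := h.nB m k ez _ j
    have eA := (oE e' i').1
    have xA := h.nM m k x a
    have q : e' * (m * x * m⁻¹) * (e' * y) = m * x * m⁻¹ * y := by
      rw [cm e' eA _ xA, mul_assoc, ← mul_assoc e', h.sq e' eA, one_mul]
    refine ⟨m, k, ez, ?_⟩
    rw [← conj_mul] at w
    rcases r with r | r
    · rw [r] at w
      exact q ▸ mul_mem w j'
    · rw [r, cm e' eA z zA, mul_assoc] at w
      exact q ▸ mul_mem ((mul_mem_cancel_left h.zB).1 w) j'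
  · have o := orb (N ⊓ centralizer {z}) t
    have e : {x | ∃ m ∈ N ⊓ centralizer {z}, m * t * m⁻¹ = x} = O1 := by
      ext x
      refine ⟨?_, fun c => ?_⟩
      · rintro ⟨m, k, rfl⟩
        exact DB _ (Dc m k.1 t a) (h.nB m k.1 (mul_inv_eq_iff_eq_mul.2 (mem_centralizer_singleton_iff.1 k.2)) t b)
      · obtain ⟨m, k, ez, r⟩ := h.t1 t (DB t a b) x c
        exact ⟨m, ⟨k, mem_centralizer_singleton_iff.2 (mul_inv_eq_iff_eq_mul.1 ez)⟩, r⟩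
    rw [e, h.c1, h.cN] at o
    rw [show Nat.card (N ⊓ centralizer {z} ⊓ centralizer {t} : Subgroup G) = 2 ^ 19 * 15 by omega]
    decide
  · have := oE c a
    have z' := oE _ (h.zE c a)
    by_cases e : c ∈ Z
    · exact .inr ⟨z'.1, fun r => z'.2 (r ▸ one_mem B), (p3 c a).1 e⟩
    · exact .inl ⟨this.1, fun r => this.2 (r ▸ one_mem B), e⟩

end H07.KN
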