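import Mathlib
import Cfsg.Agent.L.Dickson
import Cfsg.Agent.H07.RealRep
import Cfsg.Agent.H06.IndChar

/-!
Finite subgroups of `PGL₂` in characteristic zero; primitive characters of degree two (namespace H07).
-/

namespace H07

open Cfsg H05 H06 Matrix MulAction H09 H17 L.Dk Finset
open scoped MatrixGroups

variable {K : Type*} [Field K] [CharZero K] [IsAlgClosed K]

theorem exists_fixSet_zero {g : PGL(2, K)} (h1 : g ≠ 1) (hg : IsOfFinOrder g) :
    ∃ F : Finset (P1 K), (∀ y, y ∈ F ↔ g • y = y) ∧ F.card = 2 := by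
  classical
  obtain ⟨y, hy⟩ := exists_fixed g
  obtain ⟨σ, rfl⟩ := exists_smul_pInf y
  obtain ⟨a, b, rfl⟩ := exists_conj_aff hy
  have ha : a ≠ 1 := by
    rintro rfl
    obtain ⟨n, hn, h⟩ := hg.exists_pow_eq_one
    rw [conj_pow, mul_inv_eq_one, mul_eq_left, aff_pow_one, aff_eq_one] at h
    obtain rfl : b = 0 := (mul_eq_zero.1 h.2).resolve_left (Nat.cast_ne_zero.2 hn.ne')
    exact h1 (by rw [aff_one]; group)
  have hne : 1 - (a : K) ≠ 0 := fun e => ha (Units.ext (by rw [Units.val_one]; linear_combination -e))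
  refine ⟨{σ • pInf, σ • pt (b / (1 - a))}, fun y => ?_,
    Finset.card_pair ((MulAction.injective σ).ne (pInf_ne_pt _))⟩
  obtain ⟨y, rfl⟩ := MulAction.surjective σ y
  rw [mul_smul, mul_smul, inv_smul_smul, smul_left_cancel_iff, Finset.mem_insert, Finset.mem_singleton,
    smul_left_cancel_iff, smul_left_cancel_iff]
  rcases P1.cases y with rfl | ⟨s, rfl⟩
  · simp [aff_smul_pInf]
  · simp only [pt_ne_pInf, false_or, pt_inj, aff_smul_pt]
    rw [eq_div_iff hne]
    constructor <;> intro h' <;> linear_combination -h'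

theorem card_pgl_two (H : Subgroup PGL(2, K)) [Finite H] (hs : ∀ x : P1 K, 3 ≤ (stabilizer H x).index) :
    Nat.card H = 12 ∨ Nat.card H = 24 ∨ Nat.card H = 60 := by
  classical
  have := Fintype.ofFinite H
  replace hs : ∀ x : P1 K, 3 ≤ (orb H x).card := fun x => by
    have h1 := card_orb_mul (G := H) x
    rw [← (stabilizer H x).index_mul_card] at h1
    exact Nat.eq_of_mul_eq_mul_right Nat.card_pos h1 ▸ hs x
  have : ∀ g : H, ∃ F : Finset (P1 K), g ≠ 1 → (∀ y, y ∈ F ↔ g • y = y) ∧ F.card = 2 := by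
    intro g
    by_cases hg : g = 1
    · exact ⟨∅, fun h => absurd hg h⟩
    · obtain ⟨F, h⟩ := exists_fixSet_zero (g := (g : PGL(2, K))) (fun e => hg (Subtype.ext e))
        (H.subtype.isOfFinOrder (isOfFinOrder_of_finite g))
      exact ⟨F, fun _ => h⟩
  choose F hF using this
  obtain ⟨R, h1, h2, -, h4⟩ := rh F (fun g hg => (hF g hg).1)
  have hn : 0 < Nat.card H := Nat.card_pos
  rw [sum_congr rfl (g := fun _ => 2) (fun g hg => (hF g (mem_erase.1 hg).1).2), sum_const,
    card_erase_of_mem (mem_univ _), card_univ, ← Nat.card_eq_fintype_card, smul_eq_mul] at h4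
  have h5 : ∀ y ∈ R, (orb H y).card * 2 ≤ Nat.card H := fun y hy =>
    (Nat.mul_le_mul_left _ (h1 y hy)).trans (card_orb_mul y).le
  have h6 : (∑ y ∈ R, (orb H y).card) * 2 ≤ R.card * Nat.card H := by
    rw [sum_mul, ← smul_eq_mul, ← sum_const]; exact sum_le_sum h5
  have h7 : R.card * 3 ≤ ∑ y ∈ R, (orb H y).card := by
    rw [← smul_eq_mul, ← sum_const]; exact sum_le_sum fun y _ => hs y
  have h8 : 3 ≤ Nat.card H := by
    have := card_orb_mul (G := H) (pInf : P1 K)
    have h9 : 0 < Nat.card (stabilizer H (pInf : P1 K)) := Nat.card_pos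
    have := hs pInf
    nlinarith
  have h3 : R.card = 3 := by
    have h9 : R.card ≤ 3 := by
      by_contra h10
      have : 4 * Nat.card H ≤ R.card * Nat.card H := Nat.mul_le_mul_right _ (by omega)
      omega
    generalize R.card = r at h4 h6 h7 h9
    interval_cases r <;> omega
  obtain ⟨y₁, y₂, y₃, h12, h13, h23, rfl⟩ := card_eq_three.1 h3
  rw [sum_insert (by simp [h12, h13]), sum_pair h23, h3] at h4
  rcases arith_three (card_orb_mul (G := H) y₁) (card_orb_mul (G := H) y₂) (card_orb_mul (G := H) y₃)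
    (h1 _ (by simp)) (h1 _ (by simp)) (h1 _ (by simp)) (hs _) (hs _) (hs _) (by omega) with h | h | h
  exacts [Or.inl h, Or.inr (Or.inl h), Or.inr (Or.inr h.1)]

/-- a subgroup fixing a line has a linear constituent -/
theorem exists_linear_of_line {G V : Type*} [Group G] [AddCommGroup V] [Module ℂ V]
    [FiniteDimensional ℂ V] (ρ : Representation ℂ G V) (S : Subgroup G) [Fintype S] {v : V}
    (hv : v ≠ 0) (h : ∀ s ∈ S, ∃ c : ℂ, c • v = ρ s v) :
    ∃ α : S → ℂ, IsIrrCharacter S α ∧ α 1 = 1 ∧ classInner α (fun s : S => ρ.character s) ≠ 0 := by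
  let U : Subrepresentation (ρ.comp S.subtype) := ⟨Submodule.span ℂ {v}, fun s w hw => by
    obtain ⟨a, rfl⟩ := Submodule.mem_span_singleton.1 hw
    obtain ⟨c, hc⟩ := h s s.2
    exact Submodule.mem_span_singleton.2 ⟨a * c, by simp [← hc, mul_smul]⟩⟩
  obtain ⟨W, hW⟩ := exists_isCompl U
  have h1 := character_eq_add_of_isCompl _ U W hW
  rw [character_comp] at h1
  have h2 : U.toRepresentation.character 1 = 1 := by
    rw [Representation.char_one, finrank_span_singleton hv, Nat.cast_one]
  have h3 := (isCharacter_character U.toRepresentation).isIrr_of_apply_one h2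
  refine ⟨_, h3, h2, ?_⟩
  obtain ⟨n, hn⟩ := h3.isCharacter.exists_classInner_eq_nat (isCharacter_character W.toRepresentation)
  rw [show (fun s : S => ρ.character s) = _ from h1, H05.classInner_add_right, h3.classInner_self, hn]
  exact_mod_cast (show 1 + n ≠ 0 by omega)

theorem index_center_deg_two {G : Type*} [Group G] [Fintype G] {χ : G → ℂ} (hχ : IsIrrCharacter G χ)
    (hf : ∀ g : G, χ g = χ 1 → g = 1) (h2 : charDegree χ = 2)
    (hprim : ∀ H : Subgroup G, H ≠ ⊤ → ∀ θ : H → ℂ, IsCharacter H θ → χ ≠ indFun H θ) :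
    (Subgroup.center G).index = 12 ∨ (Subgroup.center G).index = 24 ∨ (Subgroup.center G).index = 60 := by
  classical
  obtain ⟨n, ρ, hρ, rfl⟩ := id hχ
  obtain rfl : n = 2 := by simpa [charDegree_character] using h2
  let f : G →* GL (Fin 2) ℂ := (mat ρ).toHomUnits
  let φ : G →* PGL(2, ℂ) := ProjGenLinGroup.mk.comp f
  have hk : φ.ker = Subgroup.center G := by
    ext g
    change ProjGenLinGroup.mk (f g) = 1 ↔ _
    rw [ProjGenLinGroup.mk_eq_one]
    constructor
    · intro h
      refine Subgroup.mem_center_iff.2 fun x => mul_inv_eq_one.1 (hf _ ?_)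
      have : f (x * g * (g * x)⁻¹) = f 1 := by
        rw [map_mul, map_mul, map_inv, map_mul, Subgroup.mem_center_iff.1 h, mul_inv_cancel, map_one]
      rw [← trace_mat, ← trace_mat]
      exact congrArg (fun u : GL (Fin 2) ℂ => u.1.trace) this
    · intro h
      obtain ⟨c, hc⟩ := scalar_of_comm ρ (B := mat ρ g) fun x => by
        rw [← map_mul, ← map_mul, Subgroup.mem_center_iff.1 h]
      exact GeneralLinearGroup.mem_center_iff_val_mem_range_scalar.2 ⟨c, by
        change _ = mat ρ g
        rw [hc, scalar_apply, smul_one_eq_diagonal]⟩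
  rw [← hk, Subgroup.index_ker]
  refine card_pgl_two _ fun x => ?_
  let S := (stabilizer φ.range x).comap φ.rangeRestrict
  have hS : S.index = (stabilizer φ.range x).index :=
    Subgroup.index_comap_of_surjective _ φ.rangeRestrict_surjective
  obtain ⟨α, h1, h3, h4⟩ := exists_linear_of_line ρ S x.rep_nonzero fun s hs => by
    have h : φ s • x = x := hs
    rw [← x.mk_rep] at h
    obtain ⟨c, hc⟩ := (Projectivization.mk_eq_mk_iff' ..).1 h
    exact ⟨c, hc.trans (mat_mulVec ρ s _)⟩
  rw [← frobenius_reciprocity _ _ _ hχ.isClassFunction] at h4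
  have h5 := (isCharacter_indFun S h1.isCharacter).charDegree_le_of_constituent hχ h4
  have h6 : indFun S α 1 = (S.index : ℂ) := by rw [indFun_one, h3, mul_one]
  rw [h2, charDegree_eq_of_apply_one h6] at h5
  by_contra h7
  have h8 : S.index = 2 := by omega
  refine hprim S (fun h => by simp [h] at h8) α h1.isCharacter
    ((isCharacter_indFun S h1.isCharacter).eq_of_constituent_of_degree_eq hχ h4 ?_).symm
  rw [h6, h8, ← hχ.charDegree_eq, h2]

end H07
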