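import Cfsg.Agent.L.Js0

/-! Finite checks for part `X` of S5573. -/

set_option autoImplicit false
open Cfsg BG Subgroup

namespace H07.S7X

def N6 (Y : Type*) [Mul Y] [One Y] : Prop := ∀ y : Y, y * y * y * (y * y * y) = 1 → y * y = 1 ∨ y * y * y = 1

theorem n4 : N6 (Equiv.Perm (Fin 4)) := by unfold N6; decide +kernel
theorem n6 : N6 (alternatingGroup (Fin 6)) := fun y h => by
  have : ∀ y : Equiv.Perm (Fin 6), y * y * y * (y * y * y) = 1 → y * y = 1 ∨ y * y * y = 1 ∨ y.sign ≠ 1 := by decide +kernel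
  rcases this y (congrArg Subtype.val h) with h | h | h
  exacts [.inl (Subtype.ext h), .inr (Subtype.ext h), (h y.2).elim]
theorem n3 : N6 (Matrix.SpecialLinearGroup (Fin 3) (ZMod 2)) := fun y h => by
  have : N6 (Matrix (Fin 3) (Fin 3) (ZMod 2)) := by unfold N6; decide +kernel
  exact (this y (congrArg Subtype.val h)).imp Subtype.ext Subtype.ext
theorem s5 : ∀ w : Equiv.Perm (Fin 5), w * w = 1 → w ≠ 1 → ∀ y, y * y * y = 1 → y ≠ 1 → y * w = w * y →
    ∃ g, g * w * g⁻¹ = Equiv.swap 0 1 := by decide +kernel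
theorem c12 : Nat.card C_[(Equiv.swap 0 1 : Equiv.Perm (Fin 5))] = 12 := by
  rw [Nat.card_congr (Equiv.subtypeEquivRight fun x => mem_cent1), Nat.card_eq_fintype_card]; decide +kernel

end H07.S7X
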