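import Mathlib

/-!
Self-dual coprime modules (namespace H07.SD): decomposition into an alternating and a symmetric
part, and the self-dual faithful irreducible modules of abelian groups.
-/

namespace H07.SD

open LinearMap (BilinForm)

variable {F G V : Type*} [Field F] [Group G] [AddCommGroup V] [Module F V]

/-- invariant subspace -/
def Inv (ρ : Representation F G V) (U : Submodule F V) : Prop := ∀ g : G, ∀ u ∈ U, ρ g u ∈ U

theorem maschke [Finite G] [NeZero (Nat.card G : F)] {ρ : Representation F G V}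
    {R C : Submodule F V} (hR : Inv ρ R) (hC : Inv ρ C) (hle : R ≤ C) :
    ∃ Y, Inv ρ Y ∧ Y ≤ C ∧ Y ⊓ R = ⊥ ∧ Y ⊔ R = C := by
  obtain ⟨Y, h1, h2⟩ := exists_isCompl (⟨R, fun g v hv => hR g v hv⟩ : Subrepresentation ρ)
  have h3 : R ⊓ Y.toSubmodule = ⊥ := congrArg Subrepresentation.toSubmodule (disjoint_iff.1 h1)
  have h4 : R ⊔ Y.toSubmodule = ⊤ := congrArg Subrepresentation.toSubmodule (codisjoint_iff.1 h2)
  refine ⟨Y.toSubmodule ⊓ C, fun g u hu => ⟨Y.apply_mem_toSubmodule g hu.1, hC g u hu.2⟩,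
    inf_le_right, eq_bot_iff.2 fun v hv => h3.le ⟨hv.2, hv.1.1⟩, ?_⟩
  rw [sup_comm, ← sup_inf_assoc_of_le _ hle, h4, top_inf_eq]

/-- `U` carries an invariant form of type `P`, nondegenerate on `U`. -/
def Form (ρ : Representation F G V) (P : BilinForm F V → Prop) (U : Submodule F V) : Prop :=
  ∃ A : BilinForm F V, P A ∧ (∀ g : G, ∀ x ∈ U, ∀ y ∈ U, A (ρ g x) (ρ g y) = A x y) ∧
    (∀ x ∈ U, (∀ y ∈ U, A x y = 0) → x = 0)

theorem exists_proj {U W : Submodule F V} (h : U ⊓ W = ⊥) :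
    ∃ π : V →ₗ[F] V, (∀ u ∈ U, π u = u) ∧ ∀ w ∈ W, π w = 0 := by
  obtain ⟨U', h1, h2⟩ := (disjoint_iff.2 h).exists_isCompl
  exact ⟨U'.projection W h2, fun u hu => Submodule.projection_apply_of_mem_left h2 (h1 hu),
    fun w hw => (Submodule.projection_apply_eq_zero_iff h2).2 hw⟩

theorem Inv.sup {ρ : Representation F G V} {U W : Submodule F V} (hU : Inv ρ U) (hW : Inv ρ W) :
    Inv ρ (U ⊔ W) := by
  intro g v hv
  obtain ⟨u, hu, w, hw, rfl⟩ := Submodule.mem_sup.1 hv
  rw [map_add]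
  exact Submodule.add_mem_sup (hU g u hu) (hW g w hw)

theorem Form.sup {ρ : Representation F G V} {P : BilinForm F V → Prop}
    (hP : ∀ (A B : BilinForm F V) (f g : V →ₗ[F] V), P A → P B → P (A.comp f f + B.comp g g))
    {U W : Submodule F V} (h : U ⊓ W = ⊥) (hU : Inv ρ U) (hW : Inv ρ W)
    (h1 : Form ρ P U) (h2 : Form ρ P W) : Form ρ P (U ⊔ W) := by
  obtain ⟨A, a1, a2, a3⟩ := h1
  obtain ⟨B, b1, b2, b3⟩ := h2
  obtain ⟨f, f1, f2⟩ := exists_proj h
  obtain ⟨k, k1, k2⟩ := exists_proj (inf_comm U W ▸ h)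
  have key : ∀ u ∈ U, ∀ w ∈ W, ∀ u' ∈ U, ∀ w' ∈ W,
      (A.comp f f + B.comp k k) (u + w) (u' + w') = A u u' + B w w' := by
    intro u hu w hw u' hu' w' hw'
    simp only [LinearMap.add_apply, LinearMap.BilinForm.comp_apply]
    rw [f.map_add, f.map_add, k.map_add, k.map_add, f1 u hu, f1 u' hu', f2 w hw, f2 w' hw',
      k1 w hw, k1 w' hw', k2 u hu, k2 u' hu']
    simp
  refine ⟨_, hP A B f k a1 b1, fun g x hx y hy => ?_, fun x hx hx0 => ?_⟩
  · obtain ⟨u, hu, w, hw, rfl⟩ := Submodule.mem_sup.1 hx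
    obtain ⟨u', hu', w', hw', rfl⟩ := Submodule.mem_sup.1 hy
    rw [(ρ g).map_add, (ρ g).map_add, key _ (hU g u hu) _ (hW g w hw) _ (hU g u' hu') _ (hW g w' hw'),
      key u hu w hw u' hu' w' hw', a2 g u hu u' hu', b2 g w hw w' hw']
  · obtain ⟨u, hu, w, hw, rfl⟩ := Submodule.mem_sup.1 hx
    have e1 : u = 0 := a3 u hu fun y hy => by
      have := hx0 _ (Submodule.add_mem_sup hy W.zero_mem)
      rw [key u hu w hw y hy 0 W.zero_mem] at this
      simpa using this
    have e2 : w = 0 := b3 w hw fun y hy => by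
      have := hx0 _ (Submodule.add_mem_sup U.zero_mem hy)
      rw [key u hu w hw 0 U.zero_mem y hy] at this
      simpa using this
    rw [e1, e2, add_zero]

theorem Form.bot {ρ : Representation F G V} {P : BilinForm F V → Prop} (h : P 0) :
    Form ρ P ⊥ :=
  ⟨0, h, fun _ _ _ _ _ => rfl, fun _ hx _ => hx⟩

/-- alternating -/
def Alt (A : BilinForm F V) : Prop := ∀ x : V, A x x = 0
/-- symmetric -/
def Sym (A : BilinForm F V) : Prop := ∀ x y : V, A x y = A y x

/-- the conclusion for an invariant subspace `C` -/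
def Good (ρ : Representation F G V) (C : Submodule F V) : Prop :=
  ∃ U W : Submodule F V, U ⊓ W = ⊥ ∧ U ⊔ W = C ∧ Inv ρ U ∧ Inv ρ W ∧ Form ρ Alt U ∧
    Form ρ Sym W ∧ ((2 : F) = 0 → ∀ g : G, ∀ w ∈ W, ρ g w = w)

theorem Good.alt {ρ : Representation F G V} {U : Submodule F V} (hU : Inv ρ U)
    (h : Form ρ Alt U) : Good ρ U :=
  ⟨U, ⊥, inf_bot_eq _, sup_bot_eq _, hU, fun g u hu => by simp_all, h,
    Form.bot fun _ _ => rfl, fun _ g w hw => by simp_all⟩

theorem Good.sym {ρ : Representation F G V} {W : Submodule F V} (hW : Inv ρ W)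
    (h : Form ρ Sym W) (h2 : (2 : F) = 0 → ∀ g : G, ∀ w ∈ W, ρ g w = w) : Good ρ W :=
  ⟨⊥, W, bot_inf_eq _, bot_sup_eq _, fun g u hu => by simp_all, hW,
    Form.bot fun _ => rfl, h, h2⟩

theorem Good.sup {ρ : Representation F G V} {C D : Submodule F V} (h : C ⊓ D = ⊥)
    (hC : Good ρ C) (hD : Good ρ D) : Good ρ (C ⊔ D) := by
  obtain ⟨U, W, a1, rfl, a3, a4, a5, a6, a7⟩ := hC
  obtain ⟨U', W', b1, rfl, b3, b4, b5, b6, b7⟩ := hD
  refine ⟨U ⊔ U', W ⊔ W', eq_bot_iff.2 fun v hv => ?_, sup_sup_sup_comm _ _ _ _, a3.sup b3,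
    a4.sup b4, Form.sup (fun A B f g hA hB x => by simp [hA (f x), hB (g x)])
      (eq_bot_iff.2 ((inf_le_inf le_sup_left le_sup_left).trans h.le)) a3 b3 a5 b5,
    Form.sup (fun A B f g hA hB x y => by simp [hA (f x), hB (g x)])
      (eq_bot_iff.2 ((inf_le_inf le_sup_right le_sup_right).trans h.le)) a4 b4 a6 b6,
    fun h2 g v hv => ?_⟩
  · obtain ⟨u, hu, u', hu', rfl⟩ := Submodule.mem_sup.1 hv.1
    obtain ⟨w, hw, w', hw', e⟩ := Submodule.mem_sup.1 hv.2
    have e1 : u - w = w' - u' := by rw [sub_eq_sub_iff_add_eq_add, ← e, add_comm]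
    have e2 : u - w = 0 := h.le ⟨sub_mem (Submodule.mem_sup_left hu) (Submodule.mem_sup_right hw),
      e1 ▸ sub_mem (Submodule.mem_sup_right hw') (Submodule.mem_sup_left hu')⟩
    have e3 : u = 0 := a1.le ⟨hu, (sub_eq_zero.1 e2) ▸ hw⟩
    have e4 : u' = 0 := b1.le ⟨hu', (sub_eq_zero.1 (e1.symm.trans e2)) ▸ hw'⟩
    rw [e3, e4, add_zero]; exact Submodule.zero_mem _
  · obtain ⟨w, hw, w', hw', rfl⟩ := Submodule.mem_sup.1 hv
    rw [map_add, a7 h2 g w hw, b7 h2 g w' hw']

/-- `B` separates `X` against `Y` -/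
def Sep (B : BilinForm F V) (X Y : Submodule F V) : Prop :=
  ∀ x ∈ X, (∀ y ∈ Y, B x y = 0) → x = 0

theorem Sep.rep [FiniteDimensional F V] {B : BilinForm F V} {X Y : Submodule F V} (h : Sep B X Y)
    (f : V →ₗ[F] F) : ∃ y ∈ Y, ∀ x ∈ X, B x y = f x := by
  have h1 : Function.Injective (B.domRestrict₁₂ X Y) := by
    rw [injective_iff_map_eq_zero]
    intro x hx
    exact Subtype.ext (h x x.2 fun y hy => LinearMap.congr_fun hx ⟨y, hy⟩)
  obtain ⟨y, hy⟩ := LinearMap.flip_surjective_iff₁.2 h1 (f.domRestrict X)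
  exact ⟨y, y.2, fun x hx => LinearMap.congr_fun hy ⟨x, hx⟩⟩

theorem Sep.flip [FiniteDimensional F V] {B : BilinForm F V} {X : Submodule F V} (h : Sep B X X) :
    Sep B.flip X X := by
  have h1 : (B.restrict X).Nondegenerate := .ofSeparatingLeft fun x hx =>
    Subtype.ext (h x x.2 fun y hy => hx ⟨y, hy⟩)
  exact fun y hy h2 => congrArg Subtype.val (h1.2 ⟨y, hy⟩ fun x => h2 x x.2)

/-- right orthogonal -/
def orth (B : BilinForm F V) (X : Submodule F V) : Submodule F V where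
  carrier := {v | ∀ x ∈ X, B x v = 0}
  add_mem' ha hb x hx := by rw [map_add, ha x hx, hb x hx, add_zero]
  zero_mem' x _ := map_zero _
  smul_mem' c v hv x hx := by rw [map_smul, hv x hx, smul_zero]

theorem inv_orth {ρ : Representation F G V} {B : BilinForm F V}
    (hB : ∀ g : G, ∀ x y : V, B (ρ g x) (ρ g y) = B x y) {X : Submodule F V} (hX : Inv ρ X) :
    Inv ρ (orth B X) := by
  intro g v hv x hx
  rw [← ρ.self_inv_apply g x, hB]
  exact hv _ (hX _ _ hx)

theorem Inv.inf {ρ : Representation F G V} {U W : Submodule F V} (hU : Inv ρ U) (hW : Inv ρ W) :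
    Inv ρ (U ⊓ W) := fun g v hv => ⟨hU g v hv.1, hW g v hv.2⟩

/-- a hyperbolic pair of subspaces -/
theorem good_pair {ρ : Representation F G V} {B : BilinForm F V}
    (hB : ∀ g : G, ∀ x y : V, B (ρ g x) (ρ g y) = B x y) {X Y : Submodule F V} (hX : Inv ρ X)
    (hY : Inv ρ Y) (h0 : ∀ x ∈ X, ∀ x' ∈ X, B x x' = 0) (ha : Sep B X Y) (hb : Sep B.flip Y X)
    (hc : Sep B.flip X Y) : Sep B.flip (X ⊔ Y) (X ⊔ Y) ∧ Good ρ (X ⊔ Y) := by
  have hd : X ⊓ Y = ⊥ := eq_bot_iff.2 fun v hv => hb v hv.2 fun x hx => h0 x hx v hv.1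
  constructor
  · intro v hv h
    obtain ⟨x, hx, y, hy, rfl⟩ := Submodule.mem_sup.1 hv
    obtain rfl : y = 0 := hb y hy fun x' hx' => by
      have := h x' (Submodule.mem_sup_left hx')
      rw [LinearMap.BilinForm.flip_apply, map_add, h0 x' hx' x hx, zero_add] at this
      exact this
    rw [add_zero] at h ⊢
    exact hc x hx fun y hy => h y (Submodule.mem_sup_right hy)
  obtain ⟨f, f1, f2⟩ := exists_proj hd
  obtain ⟨k, k1, k2⟩ := exists_proj (inf_comm X Y ▸ hd)
  have key : ∀ u ∈ X, ∀ w ∈ Y, ∀ u' ∈ X, ∀ w' ∈ Y,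
      (B.comp f k - (B.comp f k).flip) (u + w) (u' + w') = B u w' - B u' w := by
    intro u hu w hw u' hu' w' hw'
    simp only [LinearMap.sub_apply, LinearMap.BilinForm.flip_apply, LinearMap.BilinForm.comp_apply]
    rw [f.map_add, f.map_add, k.map_add, k.map_add, f1 u hu, f1 u' hu', f2 w hw, f2 w' hw',
      k1 w hw, k1 w' hw', k2 u hu, k2 u' hu']
    simp
  refine Good.alt (hX.sup hY) ⟨B.comp f k - (B.comp f k).flip, fun x => by simp,
    fun g x hx y hy => ?_, fun x hx hx0 => ?_⟩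
  · obtain ⟨u, hu, w, hw, rfl⟩ := Submodule.mem_sup.1 hx
    obtain ⟨u', hu', w', hw', rfl⟩ := Submodule.mem_sup.1 hy
    rw [(ρ g).map_add, (ρ g).map_add, key _ (hX g u hu) _ (hY g w hw) _ (hX g u' hu') _ (hY g w' hw'),
      key u hu w hw u' hu' w' hw', hB, hB]
  · obtain ⟨u, hu, w, hw, rfl⟩ := Submodule.mem_sup.1 hx
    have e1 : u = 0 := ha u hu fun y hy => by
      have := hx0 _ (Submodule.add_mem_sup X.zero_mem hy)
      rw [key u hu w hw 0 X.zero_mem y hy] at this
      simpa using this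
    have e2 : w = 0 := hb w hw fun y hy => by
      have := hx0 _ (Submodule.add_mem_sup hy Y.zero_mem)
      rw [key u hu w hw y hy 0 Y.zero_mem] at this
      simpa using this
    rw [e1, e2, add_zero]

/-- an irreducible subspace is separated by any invariant form that is nonzero on it -/
theorem sep_or {ρ : Representation F G V} {B : BilinForm F V}
    (hB : ∀ g : G, ∀ x y : V, B (ρ g x) (ρ g y) = B x y) {X Y : Submodule F V} (hX : Inv ρ X)
    (hirr : ∀ U, Inv ρ U → U ≤ X → U = ⊥ ∨ U = X) (hY : Inv ρ Y) :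
    Sep B X Y ∨ ∀ x ∈ X, ∀ y ∈ Y, B x y = 0 := by
  rcases hirr (X ⊓ orth B.flip Y) (hX.inf (inv_orth (fun g x y => hB g y x) hY)) inf_le_left with h | h
  · exact Or.inl fun x hx h1 => h.le ⟨hx, h1⟩
  · exact Or.inr fun x hx y hy => (h.ge hx).2 y hy

theorem good_irr {ρ : Representation F G V} {B : BilinForm F V}
    (hB : ∀ g : G, ∀ x y : V, B (ρ g x) (ρ g y) = B x y) {X : Submodule F V} (hX : Inv ρ X)
    (hirr : ∀ U, Inv ρ U → U ≤ X → U = ⊥ ∨ U = X) (h : Sep B X X) : Good ρ X := by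
  have hA : ∀ g : G, ∀ x y : V, (B - B.flip) (ρ g x) (ρ g y) = (B - B.flip) x y := by
    intro g x y; simp [hB]
  rcases sep_or hA hX hirr hX with h1 | h1
  · exact Good.alt hX ⟨B - B.flip, fun x => by simp, fun g x _ y _ => hA g x y, h1⟩
  have h2 : ∀ x ∈ X, ∀ y ∈ X, B x y = B y x := fun x hx y hy => by
    simpa [sub_eq_zero] using h1 x hx y hy
  obtain ⟨X', hc⟩ := X.exists_isCompl
  have f1 := fun x (hx : x ∈ X) => Submodule.projection_apply_of_mem_left hc hx
  have f2 := Submodule.projection_apply_mem hc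
  set f := X.projection X' hc
  have key : ∀ x ∈ X, ∀ y ∈ X, B.comp f f x y = B x y := fun x hx y hy => by
    simp [f1 x hx, f1 y hy]
  have i1 : ∀ g : G, ∀ x ∈ X, ∀ y ∈ X, B.comp f f (ρ g x) (ρ g y) = B.comp f f x y :=
    fun g x hx y hy => by rw [key _ (hX g x hx) _ (hX g y hy), key x hx y hy, hB]
  have i2 : Sep (B.comp f f) X X := fun x hx h3 => h x hx fun y hy => by
    rw [← key x hx y hy]; exact h3 y hy
  by_cases h4 : (2 : F) = 0
  · let U : Submodule F V :=
      { carrier := {x | x ∈ X ∧ B x x = 0}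
        add_mem' := fun {a b} ha hb => ⟨add_mem ha.1 hb.1, by
          simp only [map_add, LinearMap.add_apply, ha.2, hb.2, h2 a ha.1 b hb.1]
          linear_combination (B b a) * h4⟩
        zero_mem' := ⟨zero_mem _, by simp⟩
        smul_mem' := fun c a ha => ⟨X.smul_mem c ha.1, by simp [ha.2]⟩ }
    rcases hirr U (fun g u hu => ⟨hX g u hu.1, (hB g u u).trans hu.2⟩) (fun u hu => hu.1) with h5 | h5
    · refine Good.sym hX ⟨B.comp f f, fun x y => h2 _ (f2 x) _ (f2 y), i1, i2⟩ fun _ g w hw => ?_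
      refine sub_eq_zero.1 (h5.le ⟨sub_mem (hX g w hw) hw, ?_⟩)
      simp only [map_sub, LinearMap.sub_apply, hB, h2 w hw _ (hX g w hw)]
      linear_combination (B w w - B (ρ g w) w) * h4
    · exact Good.alt hX ⟨B.comp f f, fun x => (h5.ge (f2 x)).2, i1, i2⟩
  · exact Good.sym hX ⟨B.comp f f, fun x y => h2 _ (f2 x) _ (f2 y), i1, i2⟩ fun h => absurd h h4

theorem exists_good [Finite G] [NeZero (Nat.card G : F)] [FiniteDimensional F V]
    {ρ : Representation F G V} {B : BilinForm F V}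
    (hB : ∀ g : G, ∀ x y : V, B (ρ g x) (ρ g y) = B x y) {C X : Submodule F V} (hC : Inv ρ C)
    (hs : Sep B C C) (hX : Inv ρ X) (hXC : X ≤ C)
    (hirr : ∀ U, Inv ρ U → U ≤ X → U = ⊥ ∨ U = X) :
    ∃ Z, X ≤ Z ∧ Z ≤ C ∧ Inv ρ Z ∧ Sep B Z Z ∧ Good ρ Z := by
  rcases sep_or hB hX hirr hX with h0 | h0
  · exact ⟨X, le_rfl, hXC, hX, h0, good_irr hB hX hirr h0⟩
  have hB' : ∀ g : G, ∀ x y : V, B.flip (ρ g x) (ρ g y) = B.flip x y := fun g x y => hB g y x
  have aux : ∀ B : BilinForm F V, (∀ g : G, ∀ x y : V, B (ρ g x) (ρ g y) = B x y) → Sep B C C →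
      ∃ Y, Inv ρ Y ∧ Y ≤ C ∧ Sep B X Y ∧ Sep B.flip Y X := by
    intro B hB hs
    obtain ⟨Y, h1, h2, h3, h4⟩ := maschke (hC.inf (inv_orth hB hX)) hC inf_le_left
    refine ⟨Y, h1, h2, fun x hx h => hs x (hXC hx) fun c hc => ?_, fun y hy h => h3.le ⟨hy, h2 hy, h⟩⟩
    obtain ⟨y, hy, r, hr, rfl⟩ := Submodule.mem_sup.1 (h4.ge hc)
    rw [map_add, h y hy, hr.2 x hx, add_zero]
  obtain ⟨Y, a1, a2, a3, a4⟩ := aux B hB hs
  obtain ⟨Y', b1, b2, b3, b4⟩ := aux B.flip hB' hs.flip
  rcases sep_or hB' hX hirr a1 with h1 | h1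
  · obtain ⟨h2, h3⟩ := good_pair hB hX a1 h0 a3 a4 h1
    exact ⟨X ⊔ Y, le_sup_left, sup_le hXC a2, hX.sup a1, h2.flip, h3⟩
  rcases sep_or hB hX hirr b1 with h2 | h2
  · obtain ⟨h3, h4⟩ := good_pair hB' hX b1 (fun x hx y hy => h0 y hy x hx) b3 b4 h2
    exact ⟨X ⊔ Y', le_sup_left, sup_le hXC b2, hX.sup b1, h3, h4⟩
  let T : Submodule F V :=
    { carrier := {v | ∃ y ∈ Y, ∃ y' ∈ Y', v = y + y' ∧ ∀ x ∈ X, B x y = B y' x}
      add_mem' := by
        rintro _ _ ⟨y, hy, y', hy', rfl, h⟩ ⟨z, hz, z', hz', rfl, h'⟩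
        exact ⟨y + z, add_mem hy hz, y' + z', add_mem hy' hz', by abel, fun x hx => by
          simp [h x hx, h' x hx]⟩
      zero_mem' := ⟨0, zero_mem _, 0, zero_mem _, by simp, by simp⟩
      smul_mem' := by
        rintro c _ ⟨y, hy, y', hy', rfl, h⟩
        exact ⟨c • y, Y.smul_mem c hy, c • y', Y'.smul_mem c hy', smul_add _ _ _, fun x hx => by
          simp [h x hx]⟩ }
  have hT : Inv ρ T := by
    rintro g _ ⟨y, hy, y', hy', rfl, h⟩
    refine ⟨_, a1 g y hy, _, b1 g y' hy', map_add _ _ _, fun x hx => ?_⟩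
    rw [← ρ.self_inv_apply g x, hB, hB]
    exact h _ (hX _ _ hx)
  have hTC : T ≤ C := by
    rintro _ ⟨y, hy, y', hy', rfl, h⟩
    exact add_mem (a2 hy) (b2 hy')
  have ex : ∀ y ∈ Y, ∃ y' ∈ Y', ∀ x ∈ X, B y' x = B x y := fun y _ => b3.rep (B.flip y)
  obtain ⟨h3, h4⟩ := good_pair hB hX hT h0 (fun x hx h => a3 x hx fun y hy => by
      obtain ⟨y', hy', e⟩ := ex y hy
      have := h _ ⟨y, hy, y', hy', rfl, fun x hx => (e x hx).symm⟩
      rwa [map_add, h2 x hx y' hy', add_zero] at this)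
    (by
      rintro _ ⟨y, hy, y', hy', rfl, e⟩ h
      obtain rfl : y = 0 := a4 y hy fun x hx => by
        have := h x hx
        rw [LinearMap.BilinForm.flip_apply, map_add, h2 x hx y' hy', add_zero] at this
        exact this
      rw [zero_add]
      exact b4 y' hy' fun x hx => ((e x hx).symm.trans (map_zero _) : B y' x = 0))
    (fun x hx h => a3 x hx fun y hy => by
      obtain ⟨y', hy', e⟩ := ex y hy
      have := h _ ⟨y, hy, y', hy', rfl, fun x hx => (e x hx).symm⟩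
      rwa [map_add, h1 x hx y hy, zero_add, LinearMap.BilinForm.flip_apply, e x hx] at this)
  exact ⟨X ⊔ T, le_sup_left, sup_le hXC hTC, hX.sup hT, h3.flip, h4⟩

theorem good_of_sep [Finite G] [NeZero (Nat.card G : F)] [FiniteDimensional F V]
    {ρ : Representation F G V} {B : BilinForm F V}
    (hB : ∀ g : G, ∀ x y : V, B (ρ g x) (ρ g y) = B x y) (C : Submodule F V) (hC : Inv ρ C)
    (hs : Sep B C C) : Good ρ C := by
  induction C using WellFoundedLT.induction with
  | _ C ih =>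
  rcases eq_or_ne C ⊥ with rfl | h0
  · exact Good.alt hC (Form.bot fun _ => rfl)
  obtain ⟨X, ⟨h1, h2, h3⟩, h4⟩ := WellFounded.has_min wellFounded_lt
    {X : Submodule F V | Inv ρ X ∧ X ≤ C ∧ X ≠ ⊥} ⟨C, hC, le_rfl, h0⟩
  obtain ⟨Z, z1, z2, z3, z4, z5⟩ := exists_good hB hC hs h1 h2 fun U hU hUX => by
    by_contra h
    push Not at h
    exact h4 U ⟨hU, hUX.trans h2, h.1⟩ (lt_of_le_of_ne hUX h.2)
  have d1 : Z ⊓ (C ⊓ orth B Z) = ⊥ := eq_bot_iff.2 fun v hv => z4.flip v hv.1 hv.2.2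
  have d2 : Z ⊔ (C ⊓ orth B Z) = C := by
    refine le_antisymm (sup_le z2 inf_le_left) fun c hc => ?_
    obtain ⟨z, hz, e⟩ := z4.rep (B.flip c)
    rw [← add_sub_cancel z c]
    exact Submodule.add_mem_sup hz ⟨sub_mem hc (z2 hz), fun x hx => by
      rw [map_sub, e x hx]; exact sub_self _⟩
  rw [← d2]
  refine z5.sup d1 (ih _ (lt_of_le_of_ne inf_le_left fun h => h3 (eq_bot_iff.2 ?_))
    (hC.inf (inv_orth hB z3)) (Sep.flip (B := B.flip) fun y hy h => hs.flip y hy.1 fun c hc => ?_))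
  · rw [h, inf_eq_left.2 z2] at d1
    exact z1.trans d1.le
  · obtain ⟨z, hz, r, hr, rfl⟩ := Submodule.mem_sup.1 (d2.ge hc)
    rw [map_add, h r hr, add_zero]
    exact hy.2 z hz

open scoped IsMulCommutative in
/-- an irreducible module of an abelian group over a finite field is a field -/
theorem exists_field.{v} {H : Type*} {V : Type v} [AddCommGroup V] [Module F V] [CommGroup H]
    [Finite F] [FiniteDimensional F V] [Nontrivial V]
    (ρ : Representation F H V) (hirr : ∀ U : Submodule F V, Inv ρ U → U = ⊥ ∨ U = ⊤) :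
    ∃ (K : Type v) (_ : Field K) (_ : Algebra F K) (e : K ≃ₗ[F] V) (ψ : H →* K),
      ∀ h x, e (ψ h * x) = ρ h (e x) := by
  let R := Algebra.adjoin F (Set.range ρ)
  have hR : IsMulCommutative R := Algebra.isMulCommutative_adjoin F (by
    rintro _ ⟨a, rfl⟩ _ ⟨b, rfl⟩
    rw [← map_mul, ← map_mul, mul_comm])
  have hmem : ∀ a, ρ a ∈ R := fun a => Algebra.subset_adjoin ⟨a, rfl⟩
  have hinj : ∀ r : R, r ≠ 0 → Function.Injective (r : Module.End F V) := by
    intro r hr
    rcases hirr (LinearMap.ker (r : Module.End F V)) (by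
      intro a u hu
      have h1 := congrArg Subtype.val (mul_comm r ⟨ρ a, hmem a⟩)
      have h2 := LinearMap.congr_fun h1 u
      simp only [MulMemClass.coe_mul, Module.End.mul_apply, LinearMap.mem_ker.1 hu, map_zero] at h2
      exact h2) with h | h
    · exact LinearMap.ker_eq_bot.1 h
    · exact absurd (Subtype.ext (LinearMap.ker_eq_top.1 h)) hr
  obtain ⟨v0, hv0⟩ := exists_ne (0 : V)
  let f : R →ₗ[F] V := LinearMap.applyₗ v0 ∘ₗ R.val.toLinearMap
  have hfi : Function.Injective f := by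
    rw [injective_iff_map_eq_zero]
    intro r hr
    by_contra h0
    exact hv0 (hinj r h0 (hr.trans (map_zero _).symm))
  have hfs : Function.Surjective f := by
    rcases hirr (LinearMap.range f) (by
      rintro a u ⟨r, rfl⟩
      exact ⟨⟨ρ a, hmem a⟩ * r, rfl⟩) with h | h
    · exact absurd (h.le ⟨1, rfl⟩) hv0
    · exact LinearMap.range_eq_top.1 h
  have : Finite V := Module.finite_of_finite F
  have : Finite R := Finite.of_injective f hfi
  have : NoZeroDivisors R := ⟨fun {r s} hrs => by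
    by_contra hc
    push Not at hc
    apply hc.2
    apply hfi
    apply hinj r hc.1
    change ((r * s : R) : Module.End F V) _ = _
    rw [hrs, map_zero, map_zero]; rfl⟩
  have : IsDomain R := NoZeroDivisors.to_isDomain R
  exact ⟨R, (Finite.isField_of_domain R).toField, inferInstance, .ofBijective f ⟨hfi, hfs⟩,
    (ρ : H →* _).codRestrict R.toSubmonoid hmem, fun _ _ => rfl⟩

section
variable {H K : Type*} [CommGroup H] [Finite H] [Fintype F] [Field K] [Algebra F K] [Finite K]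
  {ψ : H →* K}

theorem frob_pow (m : ℕ) (x : K) :
    (FiniteField.frobeniusAlgHom F K ^ m) x = x ^ Fintype.card F ^ m := by
  rw [AlgHom.coe_pow, FiniteField.coe_frobeniusAlgHom, pow_iterate]

theorem field_of_form (hsp : Submodule.span F (Set.range ψ) = ⊤) (hψ : Function.Injective ψ)
    (hn : 2 ≤ Module.finrank F K) {B : BilinForm F K} (hB : B.Nondegenerate)
    (hinv : ∀ h x y, B (ψ h * x) (ψ h * y) = B x y) :
    Even (Module.finrank F K) ∧ Nat.card H ∣ Fintype.card F ^ (Module.finrank F K / 2) + 1 := by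
  have hg : ∀ h x y, B (ψ h * x) y = B x (ψ h⁻¹ * y) := fun h x y => by
    rw [← hinv h x, ← mul_assoc, ← map_mul, mul_inv_cancel, map_one, one_mul]
  have ex : ∀ a : K, ∃ s : K, ∀ x y, B (a * x) y = B x (s * y) := by
    intro a
    have ha : a ∈ Submodule.span F (Set.range ψ) := hsp ▸ Submodule.mem_top
    induction ha using Submodule.span_induction with
    | mem a ha => obtain ⟨h, rfl⟩ := ha; exact ⟨_, hg h⟩
    | zero => exact ⟨0, by simp⟩
    | add a b _ _ ha hb =>
      obtain ⟨s, hs⟩ := ha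
      obtain ⟨t, ht⟩ := hb
      exact ⟨s + t, fun x y => by simp [add_mul, hs, ht]⟩
    | smul c a _ ha =>
      obtain ⟨s, hs⟩ := ha
      exact ⟨c • s, fun x y => by simp [hs]⟩
  choose σ hσ using ex
  have un : ∀ a s, (∀ x y, B (a * x) y = B x (s * y)) → σ a = s := fun a s h =>
    sub_eq_zero.1 (hB.2 _ fun x => by
      have := (hσ a x 1).symm.trans (h x 1)
      rw [mul_one, mul_one] at this
      rw [map_sub, this, sub_self])
  let τ : K →ₐ[F] K :=
    { toFun := σ
      map_one' := un _ _ (by simp)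
      map_mul' := fun a b => un _ _ fun x y => by
        rw [mul_assoc, hσ, hσ, mul_left_comm, mul_assoc]
      map_zero' := un _ _ (by simp)
      map_add' := fun a b => un _ _ fun x y => by simp [add_mul, hσ]
      commutes' := fun c => un _ _ fun x y => by simp [← Algebra.smul_def] }
  have hτ : ∀ h, τ (ψ h) = ψ h⁻¹ := fun h => un _ _ (hg h)
  obtain ⟨⟨i, hi⟩, h1⟩ := (FiniteField.bijective_frobeniusAlgHom_pow F K).2 τ
  replace h1 : FiniteField.frobeniusAlgHom F K ^ i = τ := h1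
  have h2 : τ * τ = 1 := by
    apply AlgHom.toLinearMap_injective
    refine LinearMap.ext_on_range hsp fun h => ?_
    simp [hτ]
  have h3 : Module.finrank F K ∣ i + i := by
    rw [← FiniteField.orderOf_frobeniusAlgHom, orderOf_dvd_iff_pow_eq_one, pow_add]
    rwa [h1]
  have h4 : ∀ h : H, h ^ (Fintype.card F ^ i + 1) = 1 := fun h => hψ (by
    rw [pow_succ, map_mul, map_pow, ← frob_pow, h1, hτ, ← map_mul, inv_mul_cancel])
  have h5 : i ≠ 0 := by
    rintro rfl
    have h6 : Submodule.span F (Set.range ψ) ≤ Submodule.span F {1} := by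
      rw [Submodule.span_le]
      rintro _ ⟨h, rfl⟩
      have h7 : ψ h ^ 2 = 1 := by simpa using congrArg ψ (h4 h)
      rcases sq_eq_one_iff.1 h7 with h8 | h8 <;> rw [h8]
      · exact Submodule.mem_span_singleton_self _
      · exact neg_mem (Submodule.mem_span_singleton_self _)
    have := Submodule.finrank_mono h6
    rw [hsp, finrank_top, finrank_span_singleton one_ne_zero] at this
    omega
  obtain ⟨c, hc⟩ := h3
  obtain rfl : c = 1 := by
    rcases c with _ | _ | c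
    · omega
    · rfl
    · nlinarith
  have := isCyclic_of_injective_ringHom ψ hψ
  refine ⟨⟨i, by omega⟩, ?_⟩
  rw [show Module.finrank F K / 2 = i by omega, ← IsCyclic.exponent_eq_card]
  exact Monoid.exponent_dvd_of_forall_pow_eq_one h4

theorem form_of_field {m : ℕ} (h : Nat.card H ∣ Fintype.card F ^ m + 1) :
    ∃ B : BilinForm F K, B.Nondegenerate ∧ ∀ h x y, B (ψ h * x) (ψ h * y) = B x y := by
  let τ := FiniteField.frobeniusAlgHom F K ^ m
  refine ⟨(Algebra.traceForm F K).compRight τ.toLinearMap, .ofSeparatingRight fun y hy =>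
    τ.injective (((traceForm_nondegenerate F K).2 _ hy).trans (map_zero _).symm), fun g x y => ?_⟩
  have : ψ g * τ (ψ g) = 1 := by
    rw [frob_pow, ← pow_succ', ← map_pow, orderOf_dvd_iff_pow_eq_one.1 ((orderOf_dvd_natCard g).trans h),
      map_one]
  simp only [LinearMap.BilinForm.compRight_apply, AlgHom.toLinearMap_apply, map_mul,
    Algebra.traceForm_apply]
  rw [mul_mul_mul_comm, this, one_mul]

end

end H07.SD
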