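import Cfsg.Agent.H06.W0

/-! Part `Pu` of S5568. -/

set_option autoImplicit false
open Subgroup

namespace H07.WP
open Cfsg.Agent.H06.W L.Fz
universe u

theorem sh {G : Type u} [Group G] {M : Subgroup G} {D : Set G} {Ω : Type u} {τ : Ω → Ω → G} {σ : M →* Equiv.Perm Ω}
    (h : Tr M D τ σ) {i j k l : Ω} (a : i ≠ j) (b : k ≠ l) (d : τ i j * τ k l ∈ D) : i = k ∨ i = l ∨ j = k ∨ j = l :=
  by_contra fun n => by
    simp only [not_or] at n
    exact h.non i j k l a n.1 n.2.1 n.2.2.1 n.2.2.2 b d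

theorem pu : PuStmt.{u} := fun {G _ _ M D Ω τ σ} h I hI => by
  classical
  have t2 : ∀ i j, τ i j * τ i j = 1 := fun i j => by rw [h.symm i j, show τ j i * τ j i = τ j i * τ i j by rw [h.symm i j], h.mul, h.refl]
  have s2 : ∀ x ∈ I, x * x = 1 := fun x a => by
    by_cases e : x = 1
    · rw [e, one_mul]
    · obtain ⟨i, j, -, rfl⟩ := h.surj x (hI x a e)
      exact t2 i j
  have pr : ∀ x ∈ I, ∀ y ∈ I, x ≠ y → x * y ∈ D := fun x a y b n =>
    hI _ (mul_mem a b) fun e => n (mul_left_cancel (a := x) ((s2 x a).trans e.symm))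
  by_contra n
  have c : 4 < (I : Set G).ncard := not_le.1 n
  have ex : ∀ S : Finset G, S.card ≤ 4 → ∃ x ∈ I, x ∉ S := fun S l => by_contra fun e => by
    push Not at e
    have := Set.ncard_le_ncard (show (I : Set G) ⊆ S from e)
    rw [Set.ncard_coe_finset] at this
    omega
  obtain ⟨t, ht, nt⟩ := ex {1} (by simp)
  obtain ⟨s, hs, ns⟩ := ex {1, t} (Finset.card_le_two.trans (by decide))
  obtain ⟨v, hv, nv⟩ := ex {1, t, s, t * s} Finset.card_le_four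
  simp only [Finset.mem_insert, Finset.mem_singleton, not_or] at nt ns nv
  obtain ⟨p, q, r, pq, pr', qr, rfl, rfl⟩ : ∃ p q r, p ≠ q ∧ p ≠ r ∧ q ≠ r ∧ τ p q = t ∧ τ p r = s := by
    obtain ⟨i, j, a, rfl⟩ := h.surj t (hI t ht nt)
    obtain ⟨k, l, b, rfl⟩ := h.surj s (hI s hs ns.1)
    rcases sh h a b (pr _ ht _ hs (Ne.symm ns.2)) with rfl | rfl | rfl | rfl
    · exact ⟨i, j, l, a, b, fun e => ns.2 (by rw [e]), rfl, rfl⟩
    · exact ⟨i, j, k, a, b.symm, fun e => ns.2 (by rw [e, h.symm]), rfl, h.symm _ _⟩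
    · exact ⟨j, i, l, a.symm, b, fun e => ns.2 (by rw [e, h.symm]), h.symm _ _, rfl⟩
    · exact ⟨j, i, k, a.symm, b.symm, fun e => ns.2 (by rw [e]), h.symm _ _, h.symm _ _⟩
  have e : τ p q * τ p r = τ q r := by rw [h.symm p q, h.mul]
  obtain ⟨a, b, ab, rfl⟩ := h.surj v (hI v hv nv.1)
  have x1 := sh h ab pq (pr _ hv _ ht nv.2.1)
  have x2 := sh h ab pr' (pr _ hv _ hs nv.2.2.1)
  have x3 := sh h ab qr (e ▸ pr _ hv _ (mul_mem ht hs) nv.2.2.2)
  rw [e] at nv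
  obtain ⟨-, n1, n2, n3⟩ := nv
  have m1 : τ b a ≠ τ p q := h.symm a b ▸ n1
  have m2 : τ b a ≠ τ p r := h.symm a b ▸ n2
  have m3 : τ b a ≠ τ q r := h.symm a b ▸ n3
  rcases x1 with rfl | rfl | rfl | rfl <;> rcases x2 with e2 | e2 | e2 | e2 <;> rcases x3 with e3 | e3 | e3 | e3 <;> simp_all

end H07.WP
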