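import Cfsg.Agent.H07.WP
import Cfsg.Agent.H19.WD

/-! Part `W` of S5568. -/

set_option autoImplicit false
open Subgroup BG

namespace H07.WW
open Cfsg.Agent.H06.W L.Fz
universe u

set_option maxHeartbeats 1000000 in
theorem w : WStmt.{u} := fun {G _ _ A M B D z Ω τ σ} c h x pu sc => by
  classical
  have cm : ∀ a ∈ A, ∀ b ∈ A, a * b = b * a := fun a x b y => by
    rw [← inv_eq_of_mul_eq_one_right (c.sq _ (mul_mem x y)), mul_inv_rev, inv_eq_of_mul_eq_one_right (c.sq _ x),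
      inv_eq_of_mul_eq_one_right (c.sq _ y)]
  have mc : ∀ {g y : G}, g ∈ cj y A ↔ ∃ a ∈ A, y * a * y⁻¹ = g := fun {g y} => ⟨fun ⟨a, i, e⟩ => ⟨a, i, e⟩, fun ⟨a, i, e⟩ => ⟨a, i, e⟩⟩
  have m1 : ∀ {g y : G}, g ∈ C_[y] ↔ g * y = y * g := mem_centralizer_singleton_iff
  have tA : ∀ i j, τ i j ∈ A := fun i j => by
    by_cases e : i = j
    · rw [e, h.refl]; exact one_mem A
    · exact (c.DA _ (h.mem i j e)).1
  have nz : ∀ t ∈ D, ¬ IsConj z t := fun t a => ((x.hD t (c.DA t a).1).1 a).2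
  have zt : ∀ i j k l, i ≠ j → i ≠ k → i ≠ l → j ≠ k → j ≠ l → k ≠ l → IsConj z (τ i j * τ k l) := fun i j k l a1 a2 a3 a4 a5 a6 =>
    by_contra fun n => h.non i j k l a1 a2 a3 a4 a5 a6 ((x.hD _ (mul_mem (tA i j) (tA k l))).2 ⟨fun e => by
      have : τ i j = τ k l := mul_left_cancel (a := τ i j) ((c.sq _ (tA i j)).trans e.symm)
      rcases h.inj i j k l a1 this with r | r
      exacts [a2 r.1, a3 r.1], n⟩)
  have one : ∀ a ∈ A, IsConj z a → ∀ t ∈ D, C_[a] ⊓ C_[t] ≤ M := fun a i j t k g hg => by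
    obtain ⟨m, l, rfl⟩ := c.trZ a i (fun e => c.z1 (isConj_one_left.1 (e ▸ j.symm : IsConj 1 z).symm)) fun e => nz a e j
    have := x.ci _ (c.Dc _ (inv_mem l) t k) (show m⁻¹ * g * m ∈ C_[z] ⊓ C_[m⁻¹ * t * m⁻¹⁻¹] from ⟨m1.2 (by
      have := m1.1 hg.1
      calc m⁻¹ * g * m * z = m⁻¹ * (g * (m * z * m⁻¹)) * m := by group
        _ = _ := by rw [this]; group), m1.2 (by
      have := m1.1 hg.2
      calc m⁻¹ * g * m * (m⁻¹ * t * m⁻¹⁻¹) = m⁻¹ * (g * t) * m := by group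
        _ = _ := by rw [this]; group)⟩)
    exact (mul_mem_cancel_left (inv_mem l)).1 ((mul_mem_cancel_right l).1 this)
  have cc : ∀ y, ∀ a ∈ cj y A, cj y A ≤ C_[a] := fun y a i g j => by
    obtain ⟨a', i', rfl⟩ := mc.1 i
    obtain ⟨g', j', rfl⟩ := mc.1 j
    exact m1.2 (by rw [conj_mul, conj_mul, cm g' j' a' i'])
  have fx : ∀ y, ∀ a ∈ A, y ∈ C_[a] → a ∈ cj y A := fun y a i j => mc.2 ⟨a, i, mul_inv_eq_iff_eq_mul.2 (m1.1 j)⟩
  haveI : Finite Ω := Nat.finite_of_card_ne_zero (by rw [h.card]; decide)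
  have ex : ∀ S : Finset Ω, S.card ≤ 4 → ∃ k, k ∉ S := fun S l => by_contra fun e => by
    push Not at e
    have := Set.ncard_le_ncard (show (Set.univ : Set Ω) ⊆ S from fun k _ => e k)
    rw [Set.ncard_coe_finset, Set.ncard_univ, h.card] at this
    omega
  have cz : ∀ y a b : G, y * a * y⁻¹ = b → IsConj z b → IsConj z a := fun y a b e i => i.trans (isConj_iff.2 ⟨y, e⟩).symm
  have s1 : ∀ p q r, p ≠ q → p ≠ r → q ≠ r → C_[τ p r] ⊓ C_[τ p q] ≤ M := fun p q r pq pr qr => by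
    obtain ⟨k, hk⟩ := ex {p, q, r} (Finset.card_le_three.trans (by decide))
    obtain ⟨l, hl⟩ := ex {p, q, r, k} Finset.card_le_four
    simp only [Finset.mem_insert, Finset.mem_singleton, not_or] at hk hl
    have e : τ p q * τ p r = τ q r := by rw [h.symm p q, h.mul]
    have e' : τ p r * τ q r = τ p q := by rw [h.symm q r, h.mul]
    have e'' : τ p q * τ q r = τ p r := h.mul _ _ _
    have t2 := fun i j => c.sq _ (tA i j)
    have k2 := fun i j k l => cm _ (tA i j) _ (tA k l)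
    let F : Subgroup G :=
      { carrier := {1, τ p q, τ p r, τ q r}
        one_mem' := .inl rfl
        mul_mem' := by
          rintro _ _ (rfl | rfl | rfl | rfl) (rfl | rfl | rfl | rfl) <;>
            simp [t2, e, e', e'', k2 p r p q, k2 q r p q, k2 q r p r]
        inv_mem' := by
          rintro _ (rfl | rfl | rfl | rfl) <;> simp [inv_eq_of_mul_eq_one_right (t2 _ _)] }
    have mF : ∀ g, g ∈ F ↔ g = 1 ∨ g = τ p q ∨ g = τ p r ∨ g = τ q r := fun g => Iff.rfl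
    have FA : F ≤ A := by rintro _ (rfl | rfl | rfl | rfl); exacts [one_mem A, tA _ _, tA _ _, tA _ _]
    have YF : ∀ y ∈ C_[τ p r] ⊓ C_[τ p q], ∀ f ∈ F, y * f = f * y := fun y i => by
      rintro _ (rfl | rfl | rfl | rfl)
      · simp
      · exact m1.1 i.2
      · exact m1.1 i.1
      · rw [← e, ← mul_assoc, m1.1 i.2, mul_assoc, m1.1 i.1, mul_assoc]
    have FD : ∀ g ∈ F, ¬ IsConj z g := by
      rintro _ (rfl | rfl | rfl | rfl)
      exacts [fun j => c.z1 (isConj_one_left.1 j), nz _ (h.mem _ _ pq), nz _ (h.mem _ _ pr), nz _ (h.mem _ _ qr)]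
    have cF : Nat.card F = 4 := by
      have n1 := fun i j a => (c.DA _ (h.mem i j a)).2
      have d1 : τ p q ≠ τ p r := fun a => (h.inj _ _ _ _ pq a).elim (fun b => qr b.2) fun b => pr b.1
      have d2 : τ p q ≠ τ q r := fun a => (h.inj _ _ _ _ pq a).elim (fun b => pq b.1) fun b => pr b.1
      have d3 : τ p r ≠ τ q r := fun a => (h.inj _ _ _ _ pr a).elim (fun b => pq b.1) fun b => pr b.1
      exact Set.ncard_eq_four.2 ⟨_, _, _, _, (n1 _ _ pq).symm, (n1 _ _ pr).symm, (n1 _ _ qr).symm, d1, d2, d3, rfl⟩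
    have za := zt p q r k pq pr (Ne.symm hk.1) qr (Ne.symm hk.2.1) (Ne.symm hk.2.2)
    have zb := zt p q k l pq (Ne.symm hk.1) (Ne.symm hl.1) (Ne.symm hk.2.1) (Ne.symm hl.2.1) (Ne.symm hl.2.2.2)
    have zs := zt q r k l qr (Ne.symm hk.2.1) (Ne.symm hl.2.1) (Ne.symm hk.2.2) (Ne.symm hl.2.2.1) (Ne.symm hl.2.2.2)
    rw [x.hM]
    refine Cfsg.Agent.H19.WD.di (F := F) (fun y i f j => (YF y i f j).symm) FA
      (fun a i => ⟨m1.2 (cm a i _ (tA _ _)), m1.2 (cm a i _ (tA _ _))⟩) c.sq (fun y i n => ?_)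
      (fun y i w j k l => sc _ (h.mem _ _ pq) y i.2 w j k (x.hM ▸ l)) (mul_mem (tA _ _) (tA _ _)) (mul_mem (tA _ _) (tA _ _))
      za zb (fun a => FD _ a za) (fun a => FD _ a zb) fun y i j => ?_
    · have le : F ≤ A ⊓ cj y A := fun f j => ⟨FA j, fx y f (FA j) (m1.2 (YF y i f j))⟩
      refine (eq_of_le_of_card_ge le (cF ▸ pu _ fun a j a1 => (x.hD a j.1).2 ⟨a1, fun za => n (x.un y ?_)⟩)).ge
      exact (le_inf (cc y a j.2) (cc y _ (le (.inr (.inl rfl))).2)).trans (one a j.1 za _ (h.mem _ _ pq))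
    · have bA := mul_mem (tA p q) (tA k l)
      have key : ∀ g ∈ F, τ p q * τ r k * g ∈ D → ¬ IsConj z (y * (τ p q * τ r k) * y⁻¹ * (τ p q * τ k l) * g * (τ p q * τ k l)) :=
        fun g a b d => nz _ b (cz y _ _ (by
          have e1 : τ p q * τ k l * g * (τ p q * τ k l) = g := by rw [cm _ bA g (FA a), mul_assoc g, c.sq _ bA, mul_one]
          have e2 : g * y⁻¹ = y⁻¹ * g := (show Commute y g from YF y i g a).symm.inv_right.eq
          calc _ = y * (τ p q * τ r k) * (g * y⁻¹) := by simp only [mul_assoc]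
            _ = y * (τ p q * τ r k) * y⁻¹ * (τ p q * τ k l * g * (τ p q * τ k l)) := by rw [e1, e2, mul_assoc _ y⁻¹]
            _ = _ := by simp only [mul_assoc]) d)
      have k1 := key _ (.inr (.inl rfl)) (by
        rw [k2 p q r k, mul_assoc, t2, mul_one]; exact h.mem _ _ (Ne.symm hk.2.2))
      have k3 := key _ (.inr (.inr (.inl rfl))) (by
        rw [mul_assoc, k2 r k p r, ← mul_assoc, e, h.mul]; exact h.mem _ _ (Ne.symm hk.2.1))
      have zs' : IsConj z (τ p r * (τ p q * τ k l)) := by rw [← mul_assoc, k2 p r p q, e]; exact zs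
      rcases (mF _).1 j with r' | r' | r' | r' <;> rw [r'] at k1 k3
      · exact k3 (by rwa [one_mul])
      · exact k1 (by rwa [t2, one_mul])
      · exact k3 (by rwa [t2, one_mul])
      · exact k1 (by rwa [k2 q r p q, e''])
  intro t ht
  obtain ⟨p, q, pq, rfl⟩ := h.surj t ht
  obtain ⟨r, hr⟩ := ex {p, q} (Finset.card_le_two.trans (by decide))
  obtain ⟨k, hk⟩ := ex {p, q, r} (Finset.card_le_three.trans (by decide))
  obtain ⟨l, hl⟩ := ex {p, q, r, k} Finset.card_le_four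
  simp only [Finset.mem_insert, Finset.mem_singleton, not_or] at hr hk hl
  have t2 := fun i j => c.sq _ (tA i j)
  have k2 := fun i j k l => cm _ (tA i j) _ (tA k l)
  let F : Subgroup G :=
    { carrier := {1, τ p q}
      one_mem' := .inl rfl
      mul_mem' := by rintro _ _ (rfl | rfl) (rfl | rfl) <;> simp [t2]
      inv_mem' := by rintro _ (rfl | rfl) <;> simp [inv_eq_of_mul_eq_one_right (t2 _ _)] }
  have FD : ∀ g ∈ F, ¬ IsConj z g := by
    rintro _ (rfl | rfl)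
    exacts [fun j => c.z1 (isConj_one_left.1 j), nz _ ht]
  have za := zt p q r k pq (Ne.symm hr.1) (Ne.symm hk.1) (Ne.symm hr.2) (Ne.symm hk.2.1) (Ne.symm hk.2.2)
  have zb := zt p r k l (Ne.symm hr.1) (Ne.symm hk.1) (Ne.symm hl.1) (Ne.symm hk.2.2) (Ne.symm hl.2.2.1) (Ne.symm hl.2.2.2)
  have zs := zt q r k l (Ne.symm hr.2) (Ne.symm hk.2.1) (Ne.symm hl.2.1) (Ne.symm hk.2.2) (Ne.symm hl.2.2.1) (Ne.symm hl.2.2.2)
  rw [x.hM]
  refine Cfsg.Agent.H19.WD.di (F := F) (fun y i => ?_) ?_ (fun a i => m1.2 (cm a i _ (tA _ _))) c.sq (fun y i n v j => ?_)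
    (fun y i w j k l => sc _ ht y i w j k (x.hM ▸ l)) (mul_mem (tA _ _) (tA _ _)) (mul_mem (tA _ _) (tA _ _))
    za zb (fun a => FD _ a za) (fun a => FD _ a zb) fun y i j => ?_
  · rintro _ (rfl | rfl)
    exacts [by simp, (m1.1 i).symm]
  · rintro _ (rfl | rfl)
    exacts [one_mem A, tA _ _]
  · by_contra nv
    have tV := fx y _ (tA p q) i
    have v1 : v ≠ 1 := fun e => nv (.inl e)
    have vt : v ≠ τ p q := fun e => nv (.inr e)
    refine n (x.un y ?_)
    by_cases z1 : IsConj z v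
    · exact (le_inf (cc y v j.2) (cc y _ tV)).trans (one v j.1 z1 _ ht)
    by_cases z2 : IsConj z (τ p q * v)
    · exact (le_inf (cc y _ (mul_mem tV j.2)) (cc y _ tV)).trans (one _ (mul_mem (tA _ _) j.1) z2 _ ht)
    have d2 := (x.hD _ (mul_mem (tA p q) j.1)).2 ⟨fun e => vt (mul_left_cancel (a := τ p q) (e.trans (t2 p q).symm)), z2⟩
    obtain ⟨a, b, ab, rfl⟩ := h.surj v ((x.hD v j.1).2 ⟨v1, z1⟩)
    refine (le_inf (cc y _ j.2) (cc y _ tV)).trans ?_
    rcases H07.WP.sh h pq ab d2 with rfl | rfl | rfl | rfl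
    · exact s1 p q b pq ab fun e => vt (by rw [e])
    · rw [h.symm a p]; exact s1 p q a pq ab.symm fun e => vt (by rw [e, h.symm])
    · rw [h.symm p q]; exact s1 q p b pq.symm ab fun e => vt (by rw [e, h.symm])
    · rw [h.symm p q, h.symm a q]; exact s1 q p a pq.symm ab.symm fun e => vt (by rw [e])
  · have bA := mul_mem (tA p r) (tA k l)
    have e : τ p q * τ p r = τ q r := by rw [h.symm p q, h.mul]
    refine nz (τ r k) (h.mem _ _ (Ne.symm hk.2.2)) (cz y _ (τ p q * (y * (τ p q * τ r k) * y⁻¹ * (τ p r * τ k l)) * (τ p r * τ k l)) ?_ ?_)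
    · rw [mul_assoc (τ p q), mul_assoc _ (τ p r * τ k l), c.sq _ bA, mul_one, ← mul_assoc y, m1.1 i, ← mul_assoc, ← mul_assoc, ← mul_assoc,
        t2, one_mul]
    · rcases j with r | r <;> rw [r]
      · rwa [mul_one, ← mul_assoc, e]
      · rwa [t2, one_mul]

end H07.WW
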