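import Cfsg.Agent.H07.WP
import Cfsg.Agent.H11.K89

/-! Part `Pb` of S5569 (with `[A, t] ≤ W`). -/

set_option autoImplicit false
open Subgroup BG

namespace H07.YP
universe u

theorem pb {G : Type u} [Group G] [Finite G] {A N B W : Subgroup G} {D : Set G} {z t g : G} {Ω : Type u}
    {τ : Ω → Ω → G} {σ : N →* Equiv.Perm Ω} (c : _root_.L.Fz.Cf A N B D z) (h : _root_.L.Fz.Tr N D τ σ) (tN : t ∈ N) (t2 : t * t = 1)
    (cC : Nat.card ↥(A ⊓ C_[t]) = 128) (WC : W ≤ A ⊓ C_[t]) (cW : Nat.card W = 64) (gN : g ∈ N) (gA : g ∉ A) (g7 : g ^ 7 ∈ A)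
    (gt : t⁻¹ * (g * t * g⁻¹) ∈ A) (hc : ∀ a ∈ A, a * (t * a * t⁻¹) ∈ W) : ∃ w ∈ W, g * w * g⁻¹ ∉ W := by
  haveI : Fact (Nat.Prime 7) := ⟨by decide⟩
  have cm : ∀ a ∈ A, ∀ b ∈ A, a * b = b * a := fun a x b y => by
    rw [← inv_eq_of_mul_eq_one_right (c.sq _ (mul_mem x y)), mul_inv_rev, inv_eq_of_mul_eq_one_right (c.sq _ x),
      inv_eq_of_mul_eq_one_right (c.sq _ y)]
  by_contra n
  push Not at n
  have x7 : (g ^ 8) ^ 7 = 1 := by
    rw [← pow_mul, mul_comm, pow_mul, show 8 = 2 * 4 from rfl, pow_mul, pow_two, c.sq _ g7, one_pow]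
  have xa : ∀ a ∈ A, g ^ 8 * a * (g ^ 8)⁻¹ = g * a * g⁻¹ := fun a i => by
    rw [pow_succ', mul_assoc g, cm _ g7 a i]; group
  have x1 : g ^ 8 ≠ 1 := fun e => gA (by
    rw [pow_succ', mul_eq_one_iff_eq_inv] at e
    exact e ▸ inv_mem g7)
  have pure : ∀ v ∈ A ⊓ C_[g ^ 8], v ≠ 1 → v ∈ D := fun v i v1 => by_contra fun k => by
    obtain ⟨m, l, rfl⟩ := c.trZ v i.1 v1 k
    have q : m⁻¹ * g ^ 8 * m⁻¹⁻¹ ∈ N ⊓ centralizer {z} := mem_inf.2 ⟨N.mul_mem (N.mul_mem (N.inv_mem l) (N.pow_mem gN 8)) (N.inv_mem (N.inv_mem l)),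
      mem_centralizer_singleton_iff.2 (by
        have := mem_cent1.1 i.2
        calc m⁻¹ * g ^ 8 * m⁻¹⁻¹ * z = m⁻¹ * (g ^ 8 * (m * z * m⁻¹)) * m := by group
          _ = _ := by rw [← this]; group)⟩
    have d := (orderOf_dvd_natCard _ q).trans c.cN
    rw [show orderOf (m⁻¹ * g ^ 8 * m⁻¹⁻¹) = 7 from ((MulAut.conj m⁻¹).orderOf_eq _).trans (orderOf_eq_prime x7 x1)] at d
    revert d
    decide
  have l4 := H07.WP.pu h _ pure
  let ψ : A →* G :=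
    { toFun := fun a => a * (t * a * t⁻¹)
      map_one' := by simp
      map_mul' := fun a b => by
        rw [coe_mul, ← conj_mul, mul_assoc a.1, ← mul_assoc b.1, cm _ b.2 _ (c.nM t tN a a.2)]
        simp only [mul_assoc] }
  have k : ψ.ker = (A ⊓ C_[t]).subgroupOf A := by
    ext a
    refine (mul_eq_one_iff_inv_eq.trans ?_).trans ⟨fun (r : a.1 * t = t * a) => ⟨a.2, mem_cent1.2 r⟩, fun r => mem_cent1.1 r.2⟩
    rw [inv_eq_of_mul_eq_one_right (c.sq a a.2), eq_mul_inv_iff_mul_eq]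
  have cU : Nat.card ψ.range = 16 := by
    have := ψ.ker.card_mul_index
    rw [index_ker, k, Nat.card_congr (subgroupOfEquivOfLe inf_le_left).toEquiv, cC, c.cA] at this
    omega
  have UW : ψ.range ≤ W := by rintro _ ⟨a, rfl⟩; exact hc a a.2
  have m1 := H11.K89.md (W := W) x7 fun w i => by rw [xa w (WC i).1]; exact n w i
  have m2 := H11.K89.md (W := ψ.range) x7 (by
    rintro _ ⟨a, rfl⟩
    rw [xa _ (WC (UW ⟨a, rfl⟩)).1]
    refine ⟨⟨_, c.nM g gN a a.2⟩, ?_⟩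
    have e := cm _ gt _ (c.nM g gN a a.2)
    show g * a * g⁻¹ * (t * (g * a * g⁻¹) * t⁻¹) = g * (a * (t * a * t⁻¹)) * g⁻¹
    calc _ = g * a * g⁻¹ * (t * (g * a * g⁻¹ * (t⁻¹ * (g * t * g⁻¹))) * (g * t⁻¹ * g⁻¹)) := by group
      _ = _ := by rw [← e]; group)
  have a1 : Nat.card ↥(W ⊓ C_[g ^ 8]) ≤ 4 := (card_le_of_le (inf_le_inf_right _ (WC.trans inf_le_left))).trans l4
  have a2 : Nat.card ↥(ψ.range ⊓ C_[g ^ 8]) ≤ Nat.card ↥(W ⊓ C_[g ^ 8]) := card_le_of_le (inf_le_inf_right _ UW)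
  rw [cW] at m1
  rw [cU] at m2
  unfold Nat.ModEq at m1 m2
  omega

end H07.YP
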