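import Cfsg.Agent.H07.YP
import Cfsg.Agent.H23.Y1

/-! Part `Pb2` of S5569. -/

set_option autoImplicit false

namespace H07.YP
universe u

theorem pb2 : Cfsg.Agent.H23.Y.Pb2Stmt.{u} := fun c h tN t2 cC WC cW hc _ gN gA g7 gt => pb c h tN t2 cC WC cW gN gA g7 gt hc

end H07.YP
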